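import Mathlib
import Cfsg.Prelude.Def_Solvable
import Cfsg.Agent.Lib.Cores.PCore
import Cfsg.Agent.Lib.Cores.FPF
import Cfsg.Agent.Lib.Balance.CentralizerCore
import Cfsg.Agent.Lib.CoprimeAction.Sylow
import Cfsg.Agent.Lib.CharTheory.Burnside
import Cfsg.Agent.Lib.TwoGroups.Aut
import Cfsg.Agent.Lib.SchurExt.Elementary
import Cfsg.Agent.Lib.SchurExt.TI

/-!
Groups with the same numbers of elements of each order.
-/

set_option autoImplicit false

namespace CfsgLib.SchurExt

universe u v

/-- A bijection preserving the orders of elements exists. -/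
def SameType (F : Type u) (G : Type v) [Group F] [Group G] : Prop :=
  ∃ e : F ≃ G, ∀ x, orderOf (e x) = orderOf x

theorem sameType_of_count {F : Type u} {G : Type v} [Group F] [Finite F] [Group G] [Finite G]
    (h : ∀ m : ℕ, Nat.card {g : F // orderOf g = m} = Nat.card {g : G // orderOf g = m}) :
    SameType F G := by
  have e : ∀ m : ℕ, {g : F // orderOf g = m} ≃ {g : G // orderOf g = m} := fun m =>
    ((Finite.equivFin _).trans (finCongr (h m))).trans (Finite.equivFin _).symm
  exact ⟨Equiv.ofFiberEquiv e, fun x => Equiv.ofFiberEquiv_map e x⟩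

theorem SameType.card_eq {F : Type u} {G : Type v} [Group F] [Group G] (h : SameType F G) :
    Nat.card F = Nat.card G := by
  obtain ⟨e, -⟩ := h
  exact Nat.card_congr e

theorem SameType.symm {F : Type u} {G : Type v} [Group F] [Group G] (h : SameType F G) :
    SameType G F := by
  obtain ⟨e, he⟩ := h
  exact ⟨e.symm, fun x => by rw [← he (e.symm x), e.apply_symm_apply]⟩

theorem SameType.card_order {F : Type u} {G : Type v} [Group F] [Group G] (h : SameType F G)
    (P : ℕ → Prop) : Nat.card {g : F // P (orderOf g)} = Nat.card {g : G // P (orderOf g)} := by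
  obtain ⟨e, he⟩ := h
  exact Nat.card_congr (e.subtypeEquiv fun x => by rw [he])

section Sylow

variable {G : Type u} [Group G] [Finite G] {p : ℕ} [Fact p.Prime]

/-- A Sylow subgroup is normal exactly when there are only as many `p`-elements as its order. -/
theorem sylow_normal_iff_count (P : Sylow p G) : (P : Subgroup G).Normal ↔
    Nat.card {g : G // orderOf g ∣ Nat.card P} = Nat.card P := by
  obtain ⟨n, hn⟩ := IsPGroup.iff_card.1 P.isPGroup'
  constructor
  · intro hP
    refine Nat.card_congr (Equiv.subtypeEquivRight fun g => ⟨fun hg => ?_, fun hg => ?_⟩)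
    · obtain ⟨i, -, hi⟩ := (Nat.dvd_prime_pow Fact.out).1 (hn ▸ hg)
      exact mem_sylow_of_normal P hP hi
    · exact Subgroup.orderOf_dvd_natCard _ hg
  · intro h
    let f : P → {g : G // orderOf g ∣ Nat.card P} := fun x =>
      ⟨x, Subgroup.orderOf_dvd_natCard _ x.2⟩
    have hf : Function.Bijective f := (Nat.bijective_iff_injective_and_card _).2
      ⟨fun a b hab => Subtype.ext (congrArg Subtype.val hab :), h.symm⟩
    refine ⟨fun x hx g => ?_⟩
    obtain ⟨y, hy⟩ := hf.2 ⟨g * x * g⁻¹, by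
      rw [show g * x * g⁻¹ = MulAut.conj g x from rfl, MulEquiv.orderOf_eq]
      exact Subgroup.orderOf_dvd_natCard _ hx⟩
    have h1 : (y : G) = g * x * g⁻¹ := congrArg Subtype.val hy
    exact h1 ▸ y.2

theorem SameType.sylow_normal {F : Type v} [Group F] [Finite F] (h : SameType F G) (P : Sylow p F)
    (hP : (P : Subgroup F).Normal) (Q : Sylow p G) : (Q : Subgroup G).Normal := by
  have hc : Nat.card Q = Nat.card P := by
    rw [Q.card_eq_multiplicity, P.card_eq_multiplicity, h.card_eq]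
  rw [sylow_normal_iff_count, hc, ← h.card_order (fun o => o ∣ Nat.card P)]
  exact (sylow_normal_iff_count P).1 hP

end Sylow

/-- Sylow subgroups of odd order are cyclic, those of even order cyclic or quaternion. -/
def ThinSylow (C : Type u) [Group C] : Prop :=
  ∀ p : ℕ, p.Prime → ∀ R : Subgroup C, IsPGroup p R →
    IsCyclic R ∨ (p = 2 ∧ ∃ m : ℕ, 1 ≤ m ∧ Nonempty (R ≃* QuaternionGroup (2 ^ m)))

theorem ThinSylow.subgroup {C : Type u} [Group C] (h : ThinSylow C) (H : Subgroup C) : ThinSylow H := by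
  intro p hp R hR
  rcases h p hp (R.map H.subtype) (hR.map _) with hc | ⟨h2, m, hm, ⟨e⟩⟩
  · exact Or.inl ((R.equivMapOfInjective H.subtype H.subtype_injective).isCyclic.2 hc)
  · exact Or.inr ⟨h2, m, hm, ⟨(R.equivMapOfInjective H.subtype H.subtype_injective).trans e⟩⟩

theorem ThinSylow.isCyclic {C : Type u} [Group C] (h : ThinSylow C) {p : ℕ} (hp : p.Prime) (h2 : p ≠ 2)
    {R : Subgroup C} (hR : IsPGroup p R) : IsCyclic R :=
  (h p hp R hR).resolve_right fun h' => h2 h'.1

variable {C : Type u} [Group C] [Finite C]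

/-- A `p`-group, `p ≥ 5`, centralizes a thin `r`-group it normalizes, for a smaller prime `r`. -/
theorem le_centralizer_of_thin {p r : ℕ} [Fact p.Prime] [Fact r.Prime] (hp5 : 5 ≤ p) (hrp : r < p)
    (hthin : ThinSylow C) (P R : Subgroup C) (hP : IsPGroup p P) (hR : IsPGroup r R)
    (hn : P ≤ Subgroup.normalizer (R : Set C)) : P ≤ Subgroup.centralizer (R : Set C) := by
  have hpp : p.Prime := Fact.out
  let φ : P →* MulAut R := (Subgroup.normalizerMonoidHom R).comp (Subgroup.inclusion hn)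
  have hval : ∀ (g : P) (x : R), ((φ g x : R) : C) = g * x * (g : C)⁻¹ := fun g x => rfl
  suffices ∀ (g : P) (x : R), φ g x = x by
    intro g hg
    refine Subgroup.mem_centralizer_iff.2 fun x hx => ?_
    have := congrArg Subtype.val (this ⟨g, hg⟩ ⟨x, hx⟩)
    rw [hval] at this
    exact (mul_inv_eq_iff_eq_mul.1 this).symm
  have hcop : (∀ q : ℕ, q.Prime → q ∣ Nat.card (MulAut R) → q < p) → ∀ (g : P) (x : R), φ g x = x := by
    intro hq g x
    have h1 : φ g = 1 := by
      obtain ⟨i, hi⟩ := IsPGroup.iff_orderOf.1 hP g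
      refine orderOf_eq_one_iff.1 (Nat.eq_one_of_dvd_coprimes ?_ ((orderOf_map_dvd φ g).trans hi.dvd)
        (orderOf_dvd_natCard (φ g)))
      exact (hpp.coprime_iff_not_dvd.2 fun hd => lt_irrefl p (hq p hpp hd)).pow_left i
    rw [h1, MulAut.one_apply]
  rcases hthin r Fact.out R hR with hc | ⟨rfl, m, hm, ⟨e⟩⟩
  · refine hcop fun q hq hqd => ?_
    haveI := hc
    rw [IsCyclic.card_mulAut] at hqd
    obtain ⟨k, hk⟩ := IsPGroup.iff_card.1 hR
    rw [hk] at hqd
    rcases k.eq_zero_or_pos with rfl | hk0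
    · simp at hqd; exact absurd hqd hq.ne_one
    rw [Nat.totient_prime_pow Fact.out hk0] at hqd
    rcases hq.dvd_mul.1 hqd with h | h
    · exact ((Nat.prime_dvd_prime_iff_eq hq Fact.out).1 (hq.dvd_of_dvd_pow h)).trans_lt hrp
    · have := Nat.le_of_dvd (by have := (Fact.out : r.Prime).two_le; omega) h
      omega
  rcases eq_or_lt_of_le hm with rfl | hm2
  swap
  · refine hcop fun q hq hqd => ?_
    haveI := Fact.mk hq
    obtain ⟨k, hk⟩ := IsPGroup.iff_card.1
      (CfsgLib.TwoGroups.isPGroup_mulAut_congr e.symm (CfsgLib.TwoGroups.isPGroup_mulAut_quaternion hm2))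
    rw [hk] at hqd
    have := (Nat.prime_dvd_prime_iff_eq hq Nat.prime_two).1 (hq.dvd_of_dvd_pow hqd)
    omega
  -- the quaternion group of order eight
  haveI : NeZero (2 ^ 1) := ⟨by norm_num⟩
  have h8 : Nat.card R = 8 := by
    rw [Nat.card_congr e.toEquiv, Nat.card_eq_fintype_card, QuaternionGroup.card]; norm_num
  intro g x
  let Fix : Subgroup R :=
    { carrier := {y | φ g y = y}
      mul_mem' := fun {a b} ha hb => by simp only [Set.mem_ofPred_eq, map_mul] at *; rw [ha, hb]
      one_mem' := map_one _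
      inv_mem' := fun {a} ha => by simp only [Set.mem_ofPred_eq, map_inv] at *; rw [ha] }
  letI : MulAction (Subgroup.zpowers g) R :=
    MulAction.compHom R (φ.comp (Subgroup.zpowers g).subtype)
  have hsm : ∀ (a : Subgroup.zpowers g) (y : R), a • y = φ (a : P) y := fun a y => rfl
  have hmod := (hP.to_subgroup (Subgroup.zpowers g)).card_modEq_card_fixedPoints R
  have hfixeq : Nat.card (MulAction.fixedPoints (Subgroup.zpowers g) R) = Nat.card Fix := by
    refine Nat.card_congr (Equiv.subtypeEquivRight fun y => ⟨fun hy => ?_, fun hy => ?_⟩)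
    · exact (hsm _ _).symm.trans (hy ⟨g, Subgroup.mem_zpowers g⟩)
    · rintro ⟨a, ha⟩
      rw [hsm]
      have hst : Subgroup.zpowers g ≤ (MulAction.stabilizer (MulAut R) y).comap φ :=
        Subgroup.zpowers_le.2 (show φ g • y = y from hy)
      exact hst ha
  rw [hfixeq, h8] at hmod
  have hd := Subgroup.card_subgroup_dvd_card Fix
  rw [h8] at hd
  have hle := Nat.le_of_dvd (by norm_num) hd
  have hpos : 0 < Nat.card Fix := Nat.card_pos
  -- the involution is fixed
  have h2Fix : 2 ∣ Nat.card Fix := by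
    haveI := Fact.mk Nat.prime_two
    obtain ⟨z, hz⟩ := exists_prime_orderOf_dvd_card' (G := R) 2 (h8 ▸ by norm_num)
    have huniq : ∀ y : R, orderOf y = 2 → y = z := by
      have hq' : ∀ y : QuaternionGroup (2 ^ 1), y * y = 1 → y ≠ 1 → y = QuaternionGroup.a 2 := by decide
      have hq : ∀ y : QuaternionGroup (2 ^ 1), orderOf y = 2 → y = QuaternionGroup.a 2 := fun y hy =>
        hq' y ((pow_two y).symm.trans (orderOf_dvd_iff_pow_eq_one.1 hy.dvd))
          (fun h => by rw [h, orderOf_one] at hy; omega)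
      intro y hy
      apply e.injective
      rw [hq (e y) (by rw [MulEquiv.orderOf_eq, hy]), hq (e z) (by rw [MulEquiv.orderOf_eq, hz])]
    have hmem : z ∈ Fix := huniq _ (by rw [MulEquiv.orderOf_eq, hz])
    rw [← hz, ← Subgroup.orderOf_mk z hmem]
    exact orderOf_dvd_natCard _
  have hF8 : Nat.card Fix = 8 := by
    by_contra hne
    have h1 : p ∣ 8 - Nat.card Fix := (Nat.modEq_iff_dvd' hle).1 hmod.symm
    have h24 : Nat.card Fix = 2 ∨ Nat.card Fix = 4 := by
      interval_cases h : Nat.card Fix <;> omega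
    rcases h24 with h | h <;> rw [h] at h1
    · have := Nat.le_of_dvd (by norm_num) h1
      have h6 : p ≠ 6 := fun h => by rw [h] at hpp; norm_num at hpp
      obtain rfl : p = 5 := by omega
      norm_num at h1
    · have := Nat.le_of_dvd (by norm_num) h1
      omega
  have : Fix = ⊤ := Subgroup.eq_top_of_card_eq _ (by rw [hF8, h8])
  exact (Subgroup.mem_top x : x ∈ (⊤ : Subgroup R)) |> fun hx => (this.symm ▸ hx : x ∈ Fix)

/-- In a solvable group with thin Sylow subgroups the largest prime, if at least `5`, has a normal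
Sylow subgroup. -/
theorem sylow_normal_of_thin [Group.IsSolvable C] (hthin : ThinSylow C) {p : ℕ} [hp : Fact p.Prime]
    (hp5 : 5 ≤ p) (hmax : ∀ r : ℕ, r.Prime → r ∣ Nat.card C → r ≤ p) (P : Sylow p C) :
    (P : Subgroup C).Normal := by
  set K := Cfsg.pPrimeCore p C with hK
  have hKc : (Nat.card K).Coprime p := CfsgLib.Cores.card_pPrimeCore_coprime p
  obtain ⟨n, hn⟩ := IsPGroup.iff_card.1 P.isPGroup'
  -- the image of `P` in the quotient is normal
  set π := QuotientGroup.mk' K with hπ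
  have hsurj : Function.Surjective π := QuotientGroup.mk'_surjective K
  set Pb := P.mapSurjective hsurj with hPb
  haveI : IsCyclic (Pb : Subgroup (C ⧸ K)) := by
    rw [Sylow.coe_mapSurjective]
    haveI := hthin.isCyclic hp.out (by omega) P.isPGroup'
    exact isCyclic_of_surjective (π.subgroupMap (P : Subgroup C)) (MonoidHom.subgroupMap_surjective _ _)
  have hle : (Pb : Subgroup (C ⧸ K)) ≤ Cfsg.pCore p (C ⧸ K) := by
    intro x hx
    refine CfsgLib.Balance.centralizer_pCore_le_of_isSolvable (Subgroup.mem_centralizer_iff.2 fun y hy => ?_)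
    have hy' : y ∈ (Pb : Subgroup (C ⧸ K)) := CfsgLib.Cores.pCore_le_sylow Pb hy
    exact congrArg Subtype.val ((IsCyclic.commutative (α := (Pb : Subgroup (C ⧸ K)))).is_comm.comm
      ⟨y, hy'⟩ ⟨x, hx⟩)
  have hLn : ((Pb : Subgroup (C ⧸ K)).comap π).Normal := by
    rw [le_antisymm hle (CfsgLib.Cores.pCore_le_sylow Pb)]
    haveI : (Cfsg.pCore p (C ⧸ K)).Normal := Subgroup.sSup_normal _ fun N hN => hN.1
    infer_instance
  rw [Sylow.coe_mapSurjective, Subgroup.comap_map_eq, QuotientGroup.ker_mk'] at hLn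
  -- `P` centralizes `K`
  have hPK : (P : Subgroup C) ≤ Subgroup.centralizer (K : Set C) := by
    set Z := Subgroup.centralizer ((P : Subgroup C) : Set C) ⊓ K with hZ
    have hdvd : Nat.card K ∣ Nat.card Z := by
      refine (Nat.dvd_iff_prime_pow_dvd_dvd _ _).2 fun r k hr hk => ?_
      rcases k.eq_zero_or_pos with rfl | hk0
      · simp
      haveI := Fact.mk hr
      have hrp : r < p := by
        refine lt_of_le_of_ne (hmax r hr ((dvd_pow_self r hk0.ne').trans (hk.trans
          (Subgroup.card_subgroup_dvd_card K)))) ?_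
        rintro rfl
        exact hr.ne_one (Nat.eq_one_of_dvd_coprimes hKc ((dvd_pow_self r hk0.ne').trans hk) dvd_rfl)
      obtain ⟨R, hR⟩ := CfsgLib.CoprimeAction.exists_invariant_sylow (A := (P : Subgroup C)) (K := K)
        Subgroup.le_normalizer_of_normal (by rw [hn]; exact (hKc.symm.pow_left n))
        (Or.inr inferInstance) r
      have hc := le_centralizer_of_thin hp5 hrp hthin (P : Subgroup C) _ P.isPGroup'
        (R.isPGroup'.map K.subtype) hR
      have hRZ : (R : Subgroup K).map K.subtype ≤ Z := le_inf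
        (fun x hx => Subgroup.mem_centralizer_iff.2 fun g hg =>
          (Subgroup.mem_centralizer_iff.1 (hc hg) x hx).symm) (Subgroup.map_subtype_le _)
      refine dvd_trans ?_ (Subgroup.card_dvd_of_le hRZ)
      rw [Subgroup.card_map_of_injective K.subtype_injective, R.card_eq_multiplicity]
      exact pow_dvd_pow r ((hr.pow_dvd_iff_le_factorization Nat.card_pos.ne').1 hk)
    have hZK : Z = K := Subgroup.eq_of_le_of_card_ge inf_le_right (Nat.le_of_dvd Nat.card_pos hdvd)
    intro g hg
    refine Subgroup.mem_centralizer_iff.2 fun x hx => ?_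
    have hxZ : x ∈ Z := hZK.ge hx
    exact (Subgroup.mem_centralizer_iff.1 (Subgroup.mem_inf.1 hxZ).1 g hg).symm
  set L := (P : Subgroup C) ⊔ K with hL
  have hPL : (P : Subgroup C) ≤ L := le_sup_left
  haveI : ((P : Subgroup C).subgroupOf L).Normal := by
    refine Subgroup.normal_subgroupOf_of_le_normalizer (sup_le Subgroup.le_normalizer fun k hk => ?_)
    refine Subgroup.centralizer_le_normalizer _ (Subgroup.mem_centralizer_iff.2 fun g hg => ?_)
    exact (Subgroup.mem_centralizer_iff.1 (hPK hg) k hk).symm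
  have h1 : (P : Subgroup C) ≤ Cfsg.pCore p C := by
    have h2 : (P : Subgroup C).subgroupOf L ≤ Cfsg.pCore p L :=
      CfsgLib.Cores.le_pCore (P.isPGroup'.comap_subtype)
    have h3 := Subgroup.map_mono (f := L.subtype) h2
    rw [Subgroup.map_subgroupOf_eq_of_le hPL] at h3
    exact h3.trans (CfsgLib.Cores.map_subtype_pCore_le (Subgroup.Normal.isSubnormal hLn))
  rw [le_antisymm h1 (CfsgLib.Cores.pCore_le_sylow P)]
  exact Subgroup.sSup_normal _ fun N hN => hN.1

section Split

variable {D : Type u} [Group D] [Finite D] {p : ℕ} [hp : Fact p.Prime]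

/-- The elements of `D₁` of order `m` commuting with `u`. -/
def fixedOrd (D1 : Subgroup D) (u : D) (m : ℕ) : Type u := {x : D1 // orderOf x = m ∧ Commute (x : D) u}

variable (P D1 : Subgroup D) [P.Normal] (hc : P.IsComplement' D1) (hcyc : IsCyclic P)
  (hcop : (Nat.card D1).Coprime p) {u : D} (hu : u ∈ P) (hup : orderOf u = p) (hP : IsPGroup p P)

include hcyc hcop hu hup hP in
/-- An element of order prime to `p` fixes a cyclic `p`-group either pointwise or fixed-point-freely. -/
theorem commute_of_fixed {x v w : D} (hx : x ∈ D1) (hv : v ∈ P) (hv1 : v ≠ 1) (hxv : Commute x v)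
    (hw : w ∈ P) : Commute x w := by
  obtain ⟨⟨g, hg⟩, hgen⟩ := hcyc.exists_generator
  have hgw : ∀ y ∈ P, ∃ i : ℤ, g ^ i = y := fun y hy => by
    obtain ⟨i, hi⟩ := hgen ⟨y, hy⟩
    exact ⟨i, congrArg Subtype.val hi⟩
  obtain ⟨k, hk⟩ := hgw (x * g * x⁻¹) ((inferInstance : P.Normal).conj_mem g hg x)
  obtain ⟨j, rfl⟩ := hgw v hv
  obtain ⟨n, hn⟩ := IsPGroup.iff_orderOf.1 hP ⟨g, hg⟩
  rw [Subgroup.orderOf_mk] at hn
  have h1 : x * g ^ j * x⁻¹ = g ^ j := by rw [hxv.eq, mul_inv_cancel_right]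
  rw [← conj_zpow, ← hk, ← zpow_mul, ← orderOf_dvd_sub_iff_zpow_eq_zpow, hn] at h1
  have hdvd : (p : ℤ) ∣ k - 1 := by
    by_contra hnd
    have hco : IsCoprime ((p : ℤ) ^ n) (k - 1) :=
      (((Int.prime_iff_natAbs_prime.2 (by simpa using hp.out)).coprime_iff_not_dvd).2 hnd).pow_left
    have h2 : ((p : ℤ) ^ n) ∣ j := by
      refine hco.dvd_of_dvd_mul_left ?_
      push_cast at h1
      rw [show (k - 1) * j = k * j - j by ring]
      exact h1
    refine hv1 (orderOf_dvd_iff_zpow_eq_one.1 ?_)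
    rw [hn]; push_cast; exact h2
  have hxo : (orderOf x).Coprime p := hcop.coprime_dvd_left (Subgroup.orderOf_dvd_natCard D1 hx)
  have hxg : Commute x g := commute_of_conj_eq_zpow hk.symm hdvd hn.dvd hxo
  obtain ⟨i, rfl⟩ := hgw w hw
  exact hxg.zpow_right i

include hc in
theorem eq_of_mul_eq_mul_compl {a b x y : D} (ha : a ∈ P) (hb : b ∈ P) (hx : x ∈ D1) (hy : y ∈ D1)
    (h : a * x = b * y) : a = b ∧ x = y := by
  have := hc.1 (a₁ := (⟨a, ha⟩, ⟨x, hx⟩)) (a₂ := (⟨b, hb⟩, ⟨y, hy⟩)) h
  simp only [Prod.mk.injEq, Subtype.mk.injEq] at this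
  exact this

include hc in
theorem exists_mul_compl (g : D) : ∃ a ∈ P, ∃ x ∈ D1, g = a * x := by
  obtain ⟨⟨a, x⟩, h⟩ := hc.2 g
  exact ⟨a, a.2, x, x.2, h.symm⟩

include hc hcop hP in
/-- The projection to the complement preserves orders prime to `p`. -/
theorem orderOf_compl {a x : D} (ha : a ∈ P) (hx : x ∈ D1) (hm : (orderOf (a * x)).Coprime p) :
    orderOf x = orderOf (a * x) := by
  have hq : ((a * x : D) : D ⧸ P) = ((x : D) : D ⧸ P) := by
    rw [QuotientGroup.mk_mul, (QuotientGroup.eq_one_iff a).2 ha, one_mul]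
  refine Nat.dvd_antisymm ?_ ?_
  · have h1 : x ^ orderOf (a * x) ∈ P := (QuotientGroup.eq_one_iff _).1 (by
      rw [QuotientGroup.mk_pow, ← hq, ← QuotientGroup.mk_pow, pow_orderOf_eq_one]; rfl)
    exact orderOf_dvd_of_pow_eq_one (Subgroup.disjoint_def.1 hc.disjoint h1 (pow_mem hx _))
  · have h1 : (a * x) ^ orderOf x ∈ P := (QuotientGroup.eq_one_iff _).1 (by
      rw [QuotientGroup.mk_pow, hq, ← QuotientGroup.mk_pow, pow_orderOf_eq_one]; rfl)
    obtain ⟨i, hi⟩ := IsPGroup.iff_orderOf.1 hP ⟨_, h1⟩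
    rw [Subgroup.orderOf_mk] at hi
    exact orderOf_dvd_of_pow_eq_one (orderOf_eq_one_iff.1
      (Nat.eq_one_of_dvd_coprimes (hm.pow_right i) (orderOf_pow_dvd _) hi.dvd))

include hc hcyc hcop hu hup hP in
theorem count_mixed {m : ℕ} (hm : m.Coprime p) :
    Nat.card {g : D // orderOf g = p * m} = (p - 1) * Nat.card (fixedOrd D1 u m) := by
  classical
  haveI := hcyc
  haveI := Fintype.ofFinite P
  have hU : Nat.card {v : P // orderOf v = p} = p - 1 := by
    rw [Nat.card_eq_fintype_card, Fintype.card_subtype, IsCyclic.card_orderOf_eq_totient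
      (by rw [← Nat.card_eq_fintype_card, ← hup]; exact Subgroup.orderOf_dvd_natCard P hu),
      Nat.totient_prime hp.out]
  rw [← hU, ← Nat.card_prod]
  symm
  have hcomm : ∀ (v : {v : P // orderOf v = p}) (x : fixedOrd D1 u m), Commute ((v.1 : P) : D) ((x.1 : D1) : D) :=
    fun v x => (commute_of_fixed P D1 hcyc hcop hu hup hP x.1.2 hu
      (fun h => hp.out.ne_one (hup.symm.trans (orderOf_eq_one_iff.2 h))) x.2.2 v.1.2).symm
  let f : {v : P // orderOf v = p} × fixedOrd D1 u m → {g : D // orderOf g = p * m} := fun w =>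
    ⟨((w.1.1 : P) : D) * ((w.2.1 : D1) : D), by
      rw [(hcomm w.1 w.2).orderOf_mul_eq_mul_orderOf_of_coprime
        (by rw [Subgroup.orderOf_coe, Subgroup.orderOf_coe, w.1.2, w.2.2.1]; exact hm.symm),
        Subgroup.orderOf_coe, Subgroup.orderOf_coe, w.1.2, w.2.2.1]⟩
  refine Nat.card_eq_of_bijective f ⟨?_, ?_⟩
  · rintro ⟨⟨v, hv⟩, ⟨x, hx⟩⟩ ⟨⟨v', hv'⟩, ⟨x', hx'⟩⟩ h
    obtain ⟨h1, h2⟩ := eq_of_mul_eq_mul_compl P D1 hc v.2 v'.2 x.2 x'.2 (congrArg Subtype.val h :)
    obtain rfl : v = v' := Subtype.ext h1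
    obtain rfl : x = x' := Subtype.ext h2
    rfl
  · rintro ⟨g, hg⟩
    obtain ⟨e1, he1, he2⟩ := Nat.chineseRemainder hm.symm 1 0
    have hA : orderOf (g ^ m) = p := by
      have hm0 : m ≠ 0 := fun h0 => (orderOf_pos g).ne' (by rw [hg, h0, mul_zero])
      rw [orderOf_pow' g hm0, hg, Nat.gcd_eq_right (dvd_mul_left _ _),
        Nat.mul_div_cancel _ (Nat.pos_of_ne_zero hm0)]
    have hB : orderOf (g ^ p) = m := by
      rw [orderOf_pow' g hp.out.ne_zero, hg, Nat.gcd_eq_right (dvd_mul_right _ _),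
        Nat.mul_div_cancel_left _ hp.out.pos]
    have hidx : P.index = Nat.card D1 := hc.symm.index_eq_card
    have hAP : g ^ m ∈ P := mem_of_coprime_index P (by rw [hA, hidx]; exact hcop.symm)
    -- the two parts of `g`
    obtain ⟨s, t, hst⟩ : ∃ s t : ℤ, s * m + t * p = 1 := Int.isCoprime_iff_nat_coprime.2
      (by simpa using hm)
    set v := (g ^ m) ^ s with hv
    set y := (g ^ p) ^ t with hy
    have hvy : v * y = g := by
      rw [hv, hy, ← zpow_natCast g m, ← zpow_natCast g p, ← zpow_mul, ← zpow_mul, ← zpow_add,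
        mul_comm (m : ℤ), mul_comm (p : ℤ), hst, zpow_one]
    have hcvy : Commute v y := (Commute.pow_pow_self g m p).zpow_zpow s t
    have hvP : v ∈ P := zpow_mem hAP s
    have hvd : orderOf v ∣ p := hA ▸ orderOf_dvd_of_mem_zpowers (Subgroup.zpow_mem_zpowers (g ^ m) s)
    have hyd : orderOf y ∣ m := hB ▸ orderOf_dvd_of_mem_zpowers (Subgroup.zpow_mem_zpowers (g ^ p) t)
    have hmul : orderOf v * orderOf y = p * m := by
      rw [← hcvy.orderOf_mul_eq_mul_orderOf_of_coprime
        ((hm.symm.coprime_dvd_left hvd).coprime_dvd_right hyd), hvy, hg]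
    have hvo : orderOf v = p := by
      have hm0 : 0 < m := Nat.pos_of_ne_zero fun h0 => (orderOf_pos g).ne' (by rw [hg, h0, mul_zero])
      rcases (Nat.dvd_prime hp.out).1 hvd with h | h
      · exfalso
        rw [h, one_mul] at hmul
        have := Nat.le_of_dvd hm0 hyd
        rw [hmul] at this
        nlinarith [hp.out.two_le]
      · exact h
    have hyo : orderOf y = m := by
      rw [hvo] at hmul
      exact Nat.eq_of_mul_eq_mul_left hp.out.pos hmul
    obtain ⟨a, ha, x, hx, hyax⟩ := exists_mul_compl P D1 hc y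
    have hxo : orderOf x = m := by
      rw [orderOf_compl P D1 hc hcop hP ha hx (hyax ▸ hyo ▸ hm), ← hyax, hyo]
    have hab : ∀ b ∈ P, Commute b v := fun b hb =>
      (congrArg Subtype.val ((IsCyclic.commutative (α := P)).is_comm.comm ⟨b, hb⟩ ⟨v, hvP⟩) :)
    have hxv : Commute x v := by
      have h3 := (hab a ha).inv_left.mul_left (hyax ▸ hcvy.symm)
      rwa [inv_mul_cancel_left] at h3
    have hxall : ∀ b ∈ P, Commute x b := fun b hb => commute_of_fixed P D1 hcyc hcop hu hup hP hx hvP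
      (fun h => hp.out.ne_one (hvo.symm.trans (orderOf_eq_one_iff.2 h))) hxv hb
    have ha1 : a = 1 := by
      have h4 : a ^ m = 1 := by
        have h5 := (hxall a ha).symm.mul_pow m
        rw [← hyax, ← hyo, pow_orderOf_eq_one, hyo, ← hxo, pow_orderOf_eq_one, hxo, mul_one] at h5
        exact h5.symm
      obtain ⟨i, hi⟩ := IsPGroup.iff_orderOf.1 hP ⟨a, ha⟩
      rw [Subgroup.orderOf_mk] at hi
      exact orderOf_eq_one_iff.1 (Nat.eq_one_of_dvd_coprimes (hm.pow_right i)
        (orderOf_dvd_of_pow_eq_one h4) hi.dvd)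
    refine ⟨(⟨⟨v, hvP⟩, by rw [Subgroup.orderOf_mk, hvo]⟩,
      ⟨⟨x, hx⟩, by rw [Subgroup.orderOf_mk, hxo], hxall u hu⟩), Subtype.ext ?_⟩
    show v * x = g
    rw [← hvy, hyax, ha1, one_mul]

include hc hcyc hcop hu hup hP in
theorem count_coprime {m : ℕ} (hm : m.Coprime p) :
    Nat.card {g : D // orderOf g = m} + (Nat.card P - 1) * Nat.card (fixedOrd D1 u m) =
      Nat.card P * Nat.card {x : D1 // orderOf x = m} := by
  classical
  have hu1 : u ≠ 1 := fun h => hp.out.ne_one (hup.symm.trans (orderOf_eq_one_iff.2 h))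
  have hab : ∀ a ∈ P, ∀ b ∈ P, Commute a b := fun a ha b hb =>
    (congrArg Subtype.val ((IsCyclic.commutative (α := P)).is_comm.comm ⟨a, ha⟩ ⟨b, hb⟩) :)
  -- a coset of a fixed-point-free element consists of conjugates
  have hconj : ∀ x ∈ D1, ¬ Commute x u → ∀ a ∈ P, ∃ b ∈ P, b * x * b⁻¹ = a * x := by
    intro x hx hnc a ha
    let F : P → P := fun b => ⟨(b : D) * (x * (b : D)⁻¹ * x⁻¹),
      P.mul_mem b.2 ((inferInstance : P.Normal).conj_mem _ (P.inv_mem b.2) x)⟩
    have hF : Function.Injective F := by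
      intro b b' h
      have e : (b : D) * (x * (b : D)⁻¹ * x⁻¹) = (b' : D) * (x * (b' : D)⁻¹ * x⁻¹) :=
        congrArg Subtype.val h
      have hcm : Commute x ((b' : D)⁻¹ * b) := by
        show x * ((b' : D)⁻¹ * b) = ((b' : D)⁻¹ * b) * x
        calc x * ((b' : D)⁻¹ * b)
            = (b' : D)⁻¹ * ((b' : D) * (x * (b' : D)⁻¹ * x⁻¹)) * x * b := by group
          _ = (b' : D)⁻¹ * ((b : D) * (x * (b : D)⁻¹ * x⁻¹)) * x * b := by rw [e]
          _ = _ := by group
      refine Subtype.ext (inv_mul_eq_one.1 ?_).symm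
      by_contra hne
      exact hnc (commute_of_fixed P D1 hcyc hcop hu hup hP hx (P.mul_mem (P.inv_mem b'.2) b.2) hne hcm hu)
    obtain ⟨b, hb⟩ := Finite.surjective_of_injective hF ⟨a, ha⟩
    refine ⟨b, b.2, ?_⟩
    rw [← show (b : D) * (x * (b : D)⁻¹ * x⁻¹) = a from congrArg Subtype.val hb]
    group
  let S := {x : D1 // orderOf x = m}
  let T := {s : S // Commute ((s.1 : D1) : D) u}
  let T' := {s : S // ¬ Commute ((s.1 : D1) : D) u}
  have hT : Nat.card T = Nat.card (fixedOrd D1 u m) :=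
    Nat.card_congr (Equiv.subtypeSubtypeEquivSubtypeInter (fun x : D1 => orderOf x = m)
      (fun x : D1 => Commute (x : D) u))
  have hS : Nat.card S = Nat.card T + Nat.card T' := by
    rw [← Nat.card_sum]; exact (Nat.card_congr (Equiv.sumCompl _)).symm
  let f : T ⊕ (P × T') → {g : D // orderOf g = m} := Sum.elim
    (fun t => ⟨((t.1.1 : D1) : D), by rw [Subgroup.orderOf_coe, t.1.2]⟩)
    (fun w => ⟨(w.1 : D) * ((w.2.1.1 : D1) : D), by
      obtain ⟨b, -, hb⟩ := hconj _ w.2.1.1.2 w.2.2 w.1 w.1.2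
      rw [← hb, show b * ((w.2.1.1 : D1) : D) * b⁻¹ = MulAut.conj b ((w.2.1.1 : D1) : D) from rfl,
        MulEquiv.orderOf_eq, Subgroup.orderOf_coe, w.2.1.2]⟩)
  have hf : Function.Bijective f := by
    refine ⟨?_, ?_⟩
    · rintro (⟨⟨x, hx⟩, hxu⟩ | ⟨a, ⟨⟨x, hx⟩, hxu⟩⟩) (⟨⟨y, hy⟩, hyu⟩ | ⟨b, ⟨⟨y, hy⟩, hyu⟩⟩) h <;>
        have h' := congrArg Subtype.val h <;> simp only [f, Sum.elim_inl, Sum.elim_inr] at h'
      · obtain rfl : x = y := Subtype.ext h'
        rfl
      · obtain ⟨-, h2⟩ := eq_of_mul_eq_mul_compl P D1 hc P.one_mem b.2 x.2 y.2 ((one_mul _).trans h')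
        exact absurd (h2 ▸ hxu) hyu
      · obtain ⟨-, h2⟩ := eq_of_mul_eq_mul_compl P D1 hc a.2 P.one_mem x.2 y.2 (h'.trans (one_mul _).symm)
        exact absurd (h2.symm ▸ hyu) hxu
      · obtain ⟨h1, h2⟩ := eq_of_mul_eq_mul_compl P D1 hc a.2 b.2 x.2 y.2 h'
        obtain rfl : a = b := Subtype.ext h1
        obtain rfl : x = y := Subtype.ext h2
        rfl
    · rintro ⟨g, hg⟩
      obtain ⟨a, ha, x, hx, rfl⟩ := exists_mul_compl P D1 hc g
      have hxo : orderOf x = m := (orderOf_compl P D1 hc hcop hP ha hx (hg ▸ hm)).trans hg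
      by_cases hxu : Commute x u
      · have hxa : Commute a x := (commute_of_fixed P D1 hcyc hcop hu hup hP hx hu hu1 hxu ha).symm
        have ha1 : a = 1 := by
          have h4 : a ^ m = 1 := by
            have h5 := hxa.mul_pow m
            rw [← hg, pow_orderOf_eq_one, hg, ← hxo, pow_orderOf_eq_one, hxo, mul_one] at h5
            exact h5.symm
          obtain ⟨i, hi⟩ := IsPGroup.iff_orderOf.1 hP ⟨a, ha⟩
          rw [Subgroup.orderOf_mk] at hi
          exact orderOf_eq_one_iff.1 (Nat.eq_one_of_dvd_coprimes (hm.pow_right i)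
            (orderOf_dvd_of_pow_eq_one h4) hi.dvd)
        exact ⟨Sum.inl ⟨⟨⟨x, hx⟩, by rw [Subgroup.orderOf_mk, hxo]⟩, hxu⟩, Subtype.ext
          (by show x = a * x; rw [ha1, one_mul])⟩
      · exact ⟨Sum.inr (⟨a, ha⟩, ⟨⟨⟨x, hx⟩, by rw [Subgroup.orderOf_mk, hxo]⟩, hxu⟩), rfl⟩
  rw [← Nat.card_eq_of_bijective f hf, Nat.card_sum, Nat.card_prod,
    show Nat.card {x : D1 // orderOf x = m} = Nat.card S from rfl, hS, ← hT]
  obtain ⟨q, hq⟩ := Nat.exists_eq_add_of_le (Nat.card_pos : 1 ≤ Nat.card P)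
  rw [hq, Nat.add_sub_cancel_left]
  ring

end Split

/-- Solvability is determined by the numbers of elements of each order, for groups with thin Sylow
subgroups. -/
theorem isSolvable_of_sameType (n : ℕ) : ∀ (C : Type u) (D : Type v) [Group C] [Finite C] [Group D]
    [Finite D], Nat.card C ≤ n → SameType C D → ThinSylow C → ThinSylow D → Group.IsSolvable C →
    Group.IsSolvable D := by
  induction n with
  | zero => intro C D _ _ _ _ h; exact absurd h (by have := Nat.card_pos (α := C); omega)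
  | succ n ih =>
    intro C D _ _ _ _ hn hT hC hD hsol
    by_cases hbig : ∃ p ∈ (Nat.card C).primeFactors, 5 ≤ p
    swap
    · push Not at hbig
      refine CfsgLib.CharTheory.isSolvable_of_card_dvd_pow_mul_pow 2 3 (Nat.card C) (Nat.card C)
        Nat.prime_two Nat.prime_three ?_
      rw [Nat.dvd_iff_prime_pow_dvd_dvd]
      intro p k hp hk
      rcases k.eq_zero_or_pos with rfl | hk0
      · simp
      rw [← hT.card_eq] at hk
      have hle : k ≤ Nat.card C :=
        (Nat.lt_pow_self hp.one_lt).le.trans (Nat.le_of_dvd Nat.card_pos hk)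
      have h5 := hbig p (Nat.mem_primeFactors.2 ⟨hp, (dvd_pow_self p hk0.ne').trans hk, Nat.card_pos.ne'⟩)
      interval_cases p
      · exact absurd hp (by norm_num)
      · exact absurd hp (by norm_num)
      · exact dvd_mul_of_dvd_left (pow_dvd_pow 2 hle) _
      · exact dvd_mul_of_dvd_right (pow_dvd_pow 3 hle) _
      · exact absurd hp (by norm_num)
    obtain ⟨p0, hp0, h05⟩ := hbig
    have hne : (Nat.card C).primeFactors.Nonempty := ⟨p0, hp0⟩
    set p := (Nat.card C).primeFactors.max' hne with hpdef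
    have hpmem := Finset.max'_mem _ hne
    rw [← hpdef] at hpmem
    have hp5 : 5 ≤ p := h05.trans (Finset.le_max' _ p0 hp0)
    obtain ⟨hp, hpC, -⟩ := Nat.mem_primeFactors.1 hpmem
    haveI := Fact.mk hp
    have hmax : ∀ r : ℕ, r.Prime → r ∣ Nat.card C → r ≤ p := fun r hr hd =>
      Finset.le_max' _ r (Nat.mem_primeFactors.2 ⟨hr, hd, Nat.card_pos.ne'⟩)
    obtain ⟨P⟩ := (inferInstance : Nonempty (Sylow p C))
    obtain ⟨Q⟩ := (inferInstance : Nonempty (Sylow p D))
    haveI hPn := sylow_normal_of_thin hC hp5 hmax P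
    haveI hQn := hT.sylow_normal P hPn Q
    have hPQ : Nat.card Q = Nat.card P := by
      rw [Q.card_eq_multiplicity, P.card_eq_multiplicity, hT.card_eq]
    obtain ⟨C1, hC1⟩ := Subgroup.exists_right_complement'_of_coprime (N := (P : Subgroup C)) P.card_coprime_index
    obtain ⟨D1, hD1⟩ := Subgroup.exists_right_complement'_of_coprime (N := (Q : Subgroup D)) Q.card_coprime_index
    have hcC : (Nat.card C1).Coprime p := by
      rw [← hC1.symm.index_eq_card]; exact ((hp.coprime_iff_not_dvd).2 P.not_dvd_index).symm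
    have hcD : (Nat.card D1).Coprime p := by
      rw [← hD1.symm.index_eq_card]; exact ((hp.coprime_iff_not_dvd).2 Q.not_dvd_index).symm
    have hp2 : p ≠ 2 := by omega
    have hPc := hC.isCyclic hp hp2 P.isPGroup'
    have hQc := hD.isCyclic hp hp2 Q.isPGroup'
    have hpP : p ∣ Nat.card P := P.dvd_card_of_dvd_card hpC
    obtain ⟨u, hu⟩ := exists_prime_orderOf_dvd_card' (G := (P : Subgroup C)) p hpP
    obtain ⟨w, hw⟩ := exists_prime_orderOf_dvd_card' (G := (Q : Subgroup D)) p (hPQ ▸ hpP)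
    have hcount : ∀ m : ℕ, Nat.card {x : C1 // orderOf x = m} = Nat.card {x : D1 // orderOf x = m} := by
      intro m
      by_cases hm : m.Coprime p
      · have c1 := count_mixed (P : Subgroup C) C1 hC1 hPc hcC u.2 (by rw [Subgroup.orderOf_coe, hu]) P.isPGroup' hm
        have d1 := count_mixed (Q : Subgroup D) D1 hD1 hQc hcD w.2 (by rw [Subgroup.orderOf_coe, hw]) Q.isPGroup' hm
        have c2 := count_coprime (P : Subgroup C) C1 hC1 hPc hcC u.2 (by rw [Subgroup.orderOf_coe, hu]) P.isPGroup' hm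
        have d2 := count_coprime (Q : Subgroup D) D1 hD1 hQc hcD w.2 (by rw [Subgroup.orderOf_coe, hw]) Q.isPGroup' hm
        rw [hT.card_order (fun o => o = p * m), d1] at c1
        have hTeq := Nat.eq_of_mul_eq_mul_left (by omega : 0 < p - 1) c1
        rw [hT.card_order (fun o => o = m), ← hTeq] at c2
        rw [hPQ] at d2
        exact Nat.eq_of_mul_eq_mul_left Nat.card_pos (c2.symm.trans d2)
      · have h0 : ∀ (X : Type u) [Group X] [Finite X], (Nat.card X).Coprime p →
            Nat.card {x : X // orderOf x = m} = 0 := fun X _ _ hX => by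
          haveI : IsEmpty {x : X // orderOf x = m} :=
            ⟨fun x => hm (x.2 ▸ hX.coprime_dvd_left (orderOf_dvd_natCard x.1))⟩
          exact Nat.card_of_isEmpty
        rw [h0 C1 hcC]
        haveI : IsEmpty {x : D1 // orderOf x = m} :=
          ⟨fun x => hm (x.2 ▸ hcD.coprime_dvd_left (orderOf_dvd_natCard x.1))⟩
        exact Nat.card_of_isEmpty.symm
    have hlt : Nat.card C1 ≤ n := by
      have h1 := hC1.card_mul
      have h2 : 1 < Nat.card P := Finite.one_lt_card_iff_nontrivial.2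
        (nontrivial_of_ne u 1 fun h => by rw [h, orderOf_one] at hu; exact hp.ne_one hu.symm)
      have := Nat.card_pos (α := C1)
      nlinarith
    haveI : Group.IsSolvable D1 :=
      ih C1 D1 hlt (sameType_of_count hcount) (hC.subgroup C1) (hD.subgroup D1) inferInstance
    haveI : Group.IsSolvable (D ⧸ (Q : Subgroup D)) :=
      Group.isSolvable_of_surjective (f := hD1.symm.QuotientMulEquiv.symm.toMonoidHom)
        hD1.symm.QuotientMulEquiv.symm.surjective
    haveI : Group.IsSolvable (Q : Subgroup D) := by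
      exact @IsNilpotent.to_isSolvable _ _ Q.isPGroup'.isNilpotent
    exact Group.isSolvable_of_ker_le_range (Q : Subgroup D).subtype (QuotientGroup.mk' (Q : Subgroup D)) (by simp)

end CfsgLib.SchurExt
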