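import Mathlib
import Cfsg.Prelude.Def_Solvable
import Cfsg.Agent.Lib.Cores.FPF
import Cfsg.Agent.Lib.Cores.FPFComplement
import Cfsg.Agent.Lib.CharTheory.Burnside
import Cfsg.Agent.Lib.Hall.Existence
import Cfsg.Agent.Lib.FFModules.CoreBasic

/-!
Finite groups all of whose element orders are at most four.
-/

set_option autoImplicit false

namespace CfsgLib.SchurExt

variable {G : Type*} [Group G] [Finite G] (h4 : ∀ g : G, orderOf g ≤ 4)

include h4 in
theorem prime_dvd_small {p : ℕ} (hp : p.Prime) (hd : p ∣ Nat.card G) : p = 2 ∨ p = 3 := by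
  haveI := Fact.mk hp
  obtain ⟨g, hg⟩ := exists_prime_orderOf_dvd_card' (G := G) p hd
  have := h4 g
  rw [hg] at this
  interval_cases p <;> first | exact Or.inl rfl | exact Or.inr rfl | norm_num at hp

include h4 in
theorem isSolvable_small : Group.IsSolvable G := by
  rcases subsingleton_or_nontrivial G with _ | _
  · infer_instance
  refine CfsgLib.CharTheory.isSolvable_of_card_dvd_pow_mul_pow 2 3 (Nat.card G) (Nat.card G)
    Nat.prime_two Nat.prime_three ?_
  rw [Nat.dvd_iff_prime_pow_dvd_dvd]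
  intro p k hp hk
  rcases k.eq_zero_or_pos with rfl | hk0
  · simp
  have hle : k ≤ Nat.card G :=
    (Nat.lt_pow_self hp.one_lt).le.trans (Nat.le_of_dvd Nat.card_pos hk)
  rcases prime_dvd_small h4 hp ((dvd_pow_self p hk0.ne').trans hk) with rfl | rfl
  · exact dvd_mul_of_dvd_left (pow_dvd_pow 2 hle) _
  · exact dvd_mul_of_dvd_right (pow_dvd_pow 3 hle) _

include h4 in
theorem pow_four_of_two {g : G} {k : ℕ} (hg : orderOf g = 2 ^ k) : g ^ 4 = 1 := by
  have h := h4 g
  rw [hg] at h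
  have hk : k ≤ 2 := (Nat.pow_le_pow_iff_right (a := 2) one_lt_two).1 (by simpa using h)
  exact orderOf_dvd_iff_pow_eq_one.1 (hg ▸ (pow_dvd_pow 2 hk : 2 ^ k ∣ 2 ^ 2))

include h4 in
theorem pow_three_of_three {g : G} {k : ℕ} (hg : orderOf g = 3 ^ k) : g ^ 3 = 1 := by
  have h := h4 g
  rw [hg] at h
  have hk : k ≤ 1 := by
    by_contra hk
    have := Nat.pow_le_pow_right (show 3 > 0 by norm_num) (show 2 ≤ k by omega)
    omega
  exact orderOf_dvd_iff_pow_eq_one.1 (hg ▸ (by simpa using pow_dvd_pow 3 hk : 3 ^ k ∣ 3))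

include h4 in
theorem eq_one_of_commute_small {a b : G} {i j : ℕ} (ha : orderOf a = 2 ^ i) (hb : orderOf b = 3 ^ j)
    (hab : Commute a b) : a = 1 ∨ b = 1 := by
  rcases i.eq_zero_or_pos with rfl | hi
  · exact Or.inl (orderOf_eq_one_iff.1 (by simpa using ha))
  rcases j.eq_zero_or_pos with rfl | hj
  · exact Or.inr (orderOf_eq_one_iff.1 (by simpa using hb))
  have hm := hab.orderOf_mul_eq_mul_orderOf_of_coprime (by
    rw [ha, hb]; exact ((Nat.coprime_primes Nat.prime_two Nat.prime_three).2 (by norm_num)).pow i j)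
  have := h4 (a * b)
  rw [hm, ha, hb] at this
  have := Nat.pow_le_pow_right (show 2 > 0 by norm_num) hi
  have := Nat.pow_le_pow_right (show 3 > 0 by norm_num) hj
  nlinarith

include h4 in
/-- A subgroup of one of the two Sylow types acts fixed-point-freely on a normal one of the other. -/
theorem fpf_small {p q : ℕ} (hpq : p = 2 ∧ q = 3 ∨ p = 3 ∧ q = 2) (N R : Subgroup G)
    (hN : IsPGroup q N) (hR : IsPGroup p R) :
    ∀ a ∈ R, a ≠ 1 → N ⊓ Subgroup.centralizer ({a} : Set G) = ⊥ := by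
  intro a ha ha1
  refine (Subgroup.eq_bot_iff_forall _).2 fun v hv => ?_
  obtain ⟨hvN, hvc⟩ := Subgroup.mem_inf.1 hv
  have hc : Commute v a := Subgroup.mem_centralizer_singleton_iff.1 hvc
  rcases hpq with ⟨rfl, rfl⟩ | ⟨rfl, rfl⟩
  · haveI := Fact.mk Nat.prime_two
    haveI := Fact.mk Nat.prime_three
    obtain ⟨i, hi⟩ := IsPGroup.iff_orderOf.1 hR ⟨a, ha⟩
    obtain ⟨j, hj⟩ := IsPGroup.iff_orderOf.1 hN ⟨v, hvN⟩
    rw [Subgroup.orderOf_mk] at hi hj
    exact (eq_one_of_commute_small h4 hi hj hc.symm).resolve_left ha1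
  · haveI := Fact.mk Nat.prime_two
    haveI := Fact.mk Nat.prime_three
    obtain ⟨i, hi⟩ := IsPGroup.iff_orderOf.1 hR ⟨a, ha⟩
    obtain ⟨j, hj⟩ := IsPGroup.iff_orderOf.1 hN ⟨v, hvN⟩
    rw [Subgroup.orderOf_mk] at hi hj
    exact (eq_one_of_commute_small h4 hj hi hc).resolve_right ha1

omit [Finite G] in
theorem mk_injective_of_inf_eq_bot (N R : Subgroup G) [N.Normal] (h : N ⊓ R = ⊥) :
    Function.Injective ((QuotientGroup.mk' N).comp R.subtype) := by
  refine (injective_iff_map_eq_one _).2 fun r hr => ?_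
  have : (r : G) ∈ N ⊓ R := ⟨(QuotientGroup.eq_one_iff _).1 hr, r.2⟩
  rw [h, Subgroup.mem_bot] at this
  exact Subtype.ext this

include h4 in
/-- The case of a non-trivial normal `3`-subgroup. -/
theorem three_core_small (h2 : 2 ∣ Nat.card G) (N : Subgroup G) [N.Normal] (hN : N = Cfsg.pCore 3 G)
    (hne : N ≠ ⊥) :
    IsMulCommutative N ∧ (∀ a ∈ N, a ^ 3 = 1) ∧ ∃ S : Sylow 2 G,
      Nonempty ((S : Subgroup G) ≃* G ⧸ N) ∧
      (IsCyclic (S : Subgroup G) ∨ ∃ m : ℕ, 1 ≤ m ∧ Nonempty ((S : Subgroup G) ≃* QuaternionGroup (2 ^ m))) := by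
  haveI := Fact.mk Nat.prime_two
  haveI := Fact.mk Nat.prime_three
  have hNp : IsPGroup 3 N := hN ▸ CfsgLib.FFModules.isPGroup_pCore
  obtain ⟨S⟩ := (inferInstance : Nonempty (Sylow 2 G))
  have hfpf := fpf_small h4 (Or.inl ⟨rfl, rfl⟩) N S hNp S.isPGroup'
  obtain ⟨z, hz⟩ := exists_prime_orderOf_dvd_card' (G := G) 2 h2
  have hz2 : z * z = 1 := by rw [← pow_two, ← hz, pow_orderOf_eq_one]
  have hz1 : z ≠ 1 := fun h => by rw [h, orderOf_one] at hz; omega
  have hinv : ∀ u : G, orderOf u = 2 → ∀ v ∈ N, u * v * u⁻¹ = v⁻¹ := by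
    intro u hu v hv
    have hu1 : u ≠ 1 := fun h => by rw [h, orderOf_one] at hu; omega
    refine CfsgLib.Cores.involution_inverts (Subgroup.le_normalizer_of_normal (Subgroup.mem_top u))
      (by rw [← pow_two, ← hu, pow_orderOf_eq_one]) ?_ hv
    exact fpf_small h4 (Or.inl ⟨rfl, rfl⟩) N (Subgroup.zpowers u) hNp
      (IsPGroup.of_card (n := 1) (by rw [Nat.card_zpowers, hu, pow_one])) u (Subgroup.mem_zpowers u) hu1
  have habel : IsMulCommutative N := by
    refine ⟨⟨fun a b => Subtype.ext ?_⟩⟩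
    have h1 := hinv z hz ((a : G) * b) (N.mul_mem a.2 b.2)
    rw [show z * ((a : G) * b) * z⁻¹ = (z * a * z⁻¹) * (z * b * z⁻¹) by group, hinv z hz _ a.2,
      hinv z hz _ b.2, ← mul_inv_rev, inv_inj] at h1
    exact h1.symm
  have hexp : ∀ a ∈ N, a ^ 3 = 1 := fun a ha => by
    obtain ⟨j, hj⟩ := IsPGroup.iff_orderOf.1 hNp ⟨a, ha⟩
    rw [Subgroup.orderOf_mk] at hj
    exact pow_three_of_three h4 hj
  -- the centralizer of `N` is a `3`-group
  have hCle : Subgroup.centralizer (N : Set G) ≤ N := by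
    have hn : (Subgroup.centralizer (N : Set G)).Normal := inferInstance
    refine (CfsgLib.FFModules.le_pCore hn ?_).trans hN.ge
    intro x
    obtain ⟨a, ha, ha1⟩ := (Subgroup.bot_or_exists_ne_one N).resolve_left hne
    obtain ⟨j, hj⟩ := IsPGroup.iff_orderOf.1 hNp ⟨a, ha⟩
    rw [Subgroup.orderOf_mk] at hj
    have hc : Commute (x : G) a := (Subgroup.mem_centralizer_iff.1 x.2 a ha).symm
    have hx : orderOf (x : G) ∣ 3 := by
      have hle := h4 (x : G)
      have hpos := orderOf_pos (x : G)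
      have h2x : ¬ 2 ∣ orderOf (x : G) := by
        rintro ⟨m, hm⟩
        have hm0 : m ≠ 0 := by omega
        have h2' : orderOf ((x : G) ^ m) = 2 ^ 1 := by
          rw [orderOf_pow' _ hm0, hm, Nat.gcd_eq_right (dvd_mul_left _ _),
            Nat.mul_div_cancel _ (Nat.pos_of_ne_zero hm0), pow_one]
        rcases eq_one_of_commute_small h4 h2' hj (hc.pow_left m) with h | h
        · rw [h, orderOf_one] at h2'; omega
        · exact ha1 h
      interval_cases h : orderOf (x : G) <;> simp_all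
    exact ⟨1, Subtype.ext (by rw [pow_one, SubgroupClass.coe_pow, OneMemClass.coe_one]
                              exact orderOf_dvd_iff_pow_eq_one.1 hx)⟩
  -- the index is a power of two
  have hidx : ¬ 3 ∣ N.index := by
    intro hd
    obtain ⟨w, hw⟩ := exists_prime_orderOf_dvd_card' (G := G ⧸ N) 3 (N.index_eq_card ▸ hd)
    obtain ⟨g, rfl⟩ := QuotientGroup.mk'_surjective N w
    have hcomm : Commute ((g : G) : G ⧸ N) ((z : G) : G ⧸ N) := by
      have h2' : orderOf (g * z * g⁻¹) = 2 := by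
        rw [show g * z * g⁻¹ = MulAut.conj g z from rfl, MulEquiv.orderOf_eq, hz]
      have hmem : z⁻¹ * (g * z * g⁻¹) ∈ Subgroup.centralizer (N : Set G) := by
        rw [Subgroup.mem_centralizer_iff]
        intro v hv
        have e : z⁻¹ = z := inv_eq_of_mul_eq_one_right hz2
        have h1 : (z⁻¹ * (g * z * g⁻¹)) * v * (z⁻¹ * (g * z * g⁻¹))⁻¹ = v := by
          calc (z⁻¹ * (g * z * g⁻¹)) * v * (z⁻¹ * (g * z * g⁻¹))⁻¹
              = z⁻¹ * ((g * z * g⁻¹) * v * (g * z * g⁻¹)⁻¹) * z⁻¹⁻¹ := by group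
            _ = v := by rw [hinv _ h2' v hv, e, hinv z hz _ (N.inv_mem hv), inv_inv]
        exact (mul_inv_eq_iff_eq_mul.1 h1).symm
      have h1 := (QuotientGroup.eq_one_iff _).2 (hCle hmem)
      simp only [QuotientGroup.mk_mul, QuotientGroup.mk_inv] at h1
      show (g : G ⧸ N) * z = z * g
      rw [inv_mul_eq_one] at h1
      nth_rw 2 [h1]
      group
    have hzN : orderOf ((z : G) : G ⧸ N) = 2 := by
      refine orderOf_eq_prime (by rw [← QuotientGroup.mk_pow, pow_two, hz2]; rfl) fun h => hz1 ?_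
      refine orderOf_eq_one_iff.1 (Nat.eq_one_of_dvd_coprimes (a := 2) (b := 3) (by norm_num) hz.dvd
        (orderOf_dvd_of_pow_eq_one (hexp z ((QuotientGroup.eq_one_iff z).1 h))))
    have hm := hcomm.orderOf_mul_eq_mul_orderOf_of_coprime (by
      rw [hzN, show orderOf ((g : G) : G ⧸ N) = 3 from hw]; norm_num)
    rw [hzN, show orderOf ((g : G) : G ⧸ N) = 3 from hw, ← QuotientGroup.mk_mul] at hm
    have h1 := Nat.le_of_dvd (orderOf_pos _) (orderOf_map_dvd (QuotientGroup.mk' N) (g * z))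
    rw [show orderOf (QuotientGroup.mk' N (g * z)) = 3 * 2 from hm] at h1
    have := h4 (g * z)
    omega
  refine ⟨habel, hexp, S, ?_, ?_⟩
  · have hinf : N ⊓ (S : Subgroup G) = ⊥ := Subgroup.inf_eq_bot_of_coprime (by
      obtain ⟨i, hi⟩ := IsPGroup.iff_card.1 hNp
      rw [hi, S.card_eq_multiplicity]
      exact Nat.Coprime.pow _ _ (by norm_num))
    refine ⟨MulEquiv.ofBijective ((QuotientGroup.mk' N).comp (S : Subgroup G).subtype)
      ((Nat.bijective_iff_injective_and_card _).2 ⟨mk_injective_of_inf_eq_bot N S hinf, ?_⟩)⟩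
    refine Nat.dvd_antisymm ?_ ?_
    · obtain ⟨i, hi⟩ := IsPGroup.iff_card.1 hNp
      refine Nat.Coprime.dvd_of_dvd_mul_left (m := Nat.card N) ?_ ?_
      · rw [hi, S.card_eq_multiplicity]
        exact (Nat.Coprime.pow _ _ (by norm_num)).symm
      · rw [← Subgroup.index_eq_card, N.card_mul_index]
        exact Subgroup.card_subgroup_dvd_card _
    · rw [← Subgroup.index_eq_card]
      refine Nat.Coprime.dvd_of_dvd_mul_right (n := (S : Subgroup G).index) ?_ ?_
      · refine Nat.coprime_of_dvd fun r hr h1 h2' => ?_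
        rcases prime_dvd_small h4 hr (h1.trans N.index_dvd_card) with rfl | rfl
        · exact S.not_dvd_index h2'
        · exact hidx h1
      · rw [Subgroup.card_mul_index]; exact N.index_dvd_card
  · rcases CfsgLib.Cores.isCyclic_or_quaternion_of_fpf S.isPGroup' hne
      Subgroup.le_normalizer_of_normal hfpf with h | ⟨-, h⟩
    · exact Or.inl h
    · exact Or.inr h

include h4 in
/-- The case of trivial `O₃`: Sylow `3`-subgroups have order three and `O₂` is self-centralizing. -/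
theorem two_core_small (h2 : 2 ∣ Nat.card G) (h3 : 3 ∣ Nat.card G) (hO : Cfsg.pCore 3 G = ⊥)
    (N : Subgroup G) [N.Normal] (hN : N = Cfsg.pCore 2 G) :
    Subgroup.centralizer (N : Set G) ≤ N ∧ (∀ t : G, orderOf t = 3 → ∀ v ∈ N, t * v = v * t → v = 1) ∧
      ∀ T : Sylow 3 G, Nat.card T = 3 := by
  haveI := Fact.mk Nat.prime_two
  haveI := Fact.mk Nat.prime_three
  haveI := isSolvable_small h4
  haveI : Nontrivial G := Finite.one_lt_card_iff_nontrivial.1
    (lt_of_lt_of_le (by norm_num) (Nat.le_of_dvd Nat.card_pos h2))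
  have hNp : IsPGroup 2 N := hN ▸ CfsgLib.FFModules.isPGroup_pCore
  have hne : N ≠ ⊥ := by
    obtain ⟨p, hp, hne⟩ := CfsgLib.Hall.exists_pCore_ne_bot (G := G)
    haveI := Fact.mk hp
    obtain ⟨a, ha, ha1⟩ := (Subgroup.bot_or_exists_ne_one _).resolve_left hne
    obtain ⟨i, hi⟩ := IsPGroup.iff_orderOf.1 (CfsgLib.FFModules.isPGroup_pCore (p := p)) ⟨a, ha⟩
    rw [Subgroup.orderOf_mk] at hi
    have hi0 : i ≠ 0 := fun h => ha1 (orderOf_eq_one_iff.1 (by rw [hi, h, pow_zero]))
    rcases prime_dvd_small h4 hp ((dvd_pow_self p hi0).trans (hi ▸ orderOf_dvd_natCard a)) with rfl | rfl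
    · rwa [hN]
    · exact absurd hO hne
  have hfix : ∀ t : G, orderOf t = 3 → ∀ v ∈ N, t * v = v * t → v = 1 := by
    intro t ht v hv hc
    obtain ⟨i, hi⟩ := IsPGroup.iff_orderOf.1 hNp ⟨v, hv⟩
    rw [Subgroup.orderOf_mk] at hi
    refine (eq_one_of_commute_small h4 hi (b := t) (j := 1) (by rw [ht, pow_one]) hc.symm).resolve_right
      fun h => ?_
    rw [h, orderOf_one] at ht; omega
  refine ⟨?_, hfix, fun T => ?_⟩
  · refine (CfsgLib.FFModules.le_pCore (p := 2) inferInstance ?_).trans hN.ge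
    intro x
    refine ⟨2, Subtype.ext ?_⟩
    rw [SubgroupClass.coe_pow, OneMemClass.coe_one]
    have hle := h4 (x : G)
    have hpos := orderOf_pos (x : G)
    have hne3 : orderOf (x : G) ≠ 3 := by
      intro hx
      obtain ⟨v, hv, hv1⟩ := (Subgroup.bot_or_exists_ne_one N).resolve_left hne
      exact hv1 (hfix _ hx v hv (Subgroup.mem_centralizer_iff.1 x.2 v hv).symm)
    refine orderOf_dvd_iff_pow_eq_one.1 ?_
    interval_cases h : orderOf (x : G) <;> simp_all
  · have hfpf := fpf_small h4 (Or.inr ⟨rfl, rfl⟩) N T hNp T.isPGroup'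
    rcases CfsgLib.Cores.isCyclic_or_quaternion_of_fpf T.isPGroup' hne
      Subgroup.le_normalizer_of_normal hfpf with h | ⟨h, -⟩
    swap
    · omega
    obtain ⟨g, hg⟩ := IsCyclic.exists_ofOrder_eq_natCard (α := T)
    obtain ⟨i, hi⟩ := IsPGroup.iff_card.1 T.isPGroup'
    have h1 : (g : G) ^ 3 = 1 := pow_three_of_three h4 (k := i) (by rw [Subgroup.orderOf_coe, hg, hi])
    have h5 : Nat.card T ∣ 3 := hg ▸ orderOf_dvd_of_pow_eq_one (Subtype.ext (by simpa using h1))
    exact ((Nat.prime_three.eq_one_or_self_of_dvd _ h5).resolve_left fun h1 =>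
      T.ne_bot_of_dvd_card h3 (Subgroup.card_eq_one.1 h1))

end CfsgLib.SchurExt
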