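import Mathlib
import Cfsg.Agent.Lib.ElementOrders.Frobenius
import Cfsg.Agent.Lib.CharTheory.Burnside

/-!
Counting elements of a given order: congruences, and consequences when only three counts occur.
-/

set_option autoImplicit false
set_option linter.style.haveILetI false

namespace CfsgLib.SchurExt.ThreeCounts

universe u

variable {G : Type u} [Group G] [Finite G]

/-- The number of elements of order `d`. -/
noncomputable def cnt (G : Type u) [Group G] (d : ℕ) : ℕ := Nat.card {g : G // orderOf g = d}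

/-- A map of prime period without fixed points acts on a set of cardinality divisible by that prime. -/
theorem dvd_card_of_free {T : Type u} [Finite T] (f : T → T) {p : ℕ} [hp : Fact p.Prime]
    (hper : ∀ t, f^[p] t = t) (hfree : ∀ t, f t ≠ t) : p ∣ Nat.card T := by
  have hinj : Function.Injective f := fun s t e => by
    rw [← hper s, ← hper t]
    obtain ⟨k, hk⟩ := Nat.exists_eq_succ_of_ne_zero hp.out.ne_zero
    rw [hk, Function.iterate_succ_apply, Function.iterate_succ_apply, e]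
  let σ : Equiv.Perm T := Equiv.ofBijective f (Finite.injective_iff_bijective.1 hinj)
  have hσp : σ ^ p = 1 := Equiv.ext fun t => by
    rw [Equiv.Perm.coe_pow]
    exact hper t
  have hK : IsPGroup p (Subgroup.zpowers σ) := by
    obtain ⟨j, -, hj⟩ := (Nat.dvd_prime_pow hp.out).1
      (show orderOf σ ∣ p ^ 1 by rw [pow_one]; exact orderOf_dvd_of_pow_eq_one hσp)
    exact IsPGroup.of_card (n := j) (by rw [Nat.card_zpowers, hj])
  have h2 : IsEmpty (MulAction.fixedPoints (Subgroup.zpowers σ) T) := ⟨fun v =>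
    hfree v.1 (v.2 ⟨σ, Subgroup.mem_zpowers σ⟩)⟩
  have h1 := hK.card_modEq_card_fixedPoints T
  rw [Nat.card_eq_zero.2 (Or.inl h2)] at h1
  exact Nat.modEq_zero_iff_dvd.1 h1

/-- The same, for a map of the group preserving a set. -/
theorem dvd_card_of_free' (f : G → G) (T : G → Prop) {p : ℕ} [hp : Fact p.Prime] (hmaps : ∀ g, T g → T (f g))
    (hper : ∀ g, T g → f^[p] g = g) (hfree : ∀ g, T g → f g ≠ g) : p ∣ Nat.card {g : G // T g} := by
  refine dvd_card_of_free (fun g : {g : G // T g} => ⟨f g.1, hmaps _ g.2⟩) (fun g => Subtype.ext ?_)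
    fun g e => hfree g.1 g.2 (congrArg Subtype.val e)
  have key : ∀ k, (Nat.iterate (fun g : {g : G // T g} => (⟨f g.1, hmaps _ g.2⟩ : {g : G // T g})) k g).1 =
      f^[k] g.1 := by
    intro k
    induction k with
    | zero => rfl
    | succ k ih => rw [Function.iterate_succ_apply', Function.iterate_succ_apply', ← ih]
  rw [key p]
  exact hper _ g.2

omit [Finite G] in
theorem iterate_mul_right (z g : G) (k : ℕ) : (fun x => x * z)^[k] g = g * z ^ k := by
  induction k with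
  | zero => simp
  | succ k ih => rw [Function.iterate_succ_apply', ih, pow_succ, mul_assoc]

omit [Finite G] in
theorem iterate_conj (z g : G) (k : ℕ) : (fun x => z * x * z⁻¹)^[k] g = z ^ k * g * (z ^ k)⁻¹ := by
  induction k with
  | zero => simp
  | succ k ih => rw [Function.iterate_succ_apply', ih, pow_succ']; group

theorem cnt_one : cnt G 1 = 1 := by
  rw [cnt, Nat.card_eq_one_iff_unique]
  exact ⟨⟨fun a b => Subtype.ext ((orderOf_eq_one_iff.1 a.2).trans (orderOf_eq_one_iff.1 b.2).symm)⟩,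
    ⟨⟨1, orderOf_one⟩⟩⟩

omit [Finite G] in
theorem cnt_ne_zero [Finite G] {d : ℕ} : cnt G d ≠ 0 ↔ ∃ g : G, orderOf g = d := by
  rw [cnt, Nat.card_ne_zero]
  exact ⟨fun h => h.1.elim fun g => ⟨g.1, g.2⟩, fun ⟨g, hg⟩ => ⟨⟨⟨g, hg⟩⟩, inferInstance⟩⟩

theorem cnt_ne_zero_of_prime {p : ℕ} [hp : Fact p.Prime] (hpG : p ∣ Nat.card G) : cnt G p ≠ 0 :=
  cnt_ne_zero.2 (exists_prime_orderOf_dvd_card' p hpG)

/-- Elements of order at least three come in pairs. -/
theorem even_cnt {d : ℕ} (hd : 3 ≤ d) : 2 ∣ cnt G d := by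
  haveI : Fact (Nat.Prime 2) := ⟨Nat.prime_two⟩
  refine dvd_card_of_free (fun g : {g : G // orderOf g = d} => ⟨g.1⁻¹, by rw [orderOf_inv, g.2]⟩)
    (fun g => Subtype.ext (inv_inv g.1)) fun g e => ?_
  have e' : g.1⁻¹ = g.1 := congrArg Subtype.val e
  have h2 : g.1 ^ 2 = 1 := by
    rw [pow_two]
    nth_rewrite 1 [← e']
    exact inv_mul_cancel _
  have := Nat.le_of_dvd two_pos (g.2 ▸ orderOf_dvd_of_pow_eq_one h2)
  omega

theorem orderOf_pow_prime {p d : ℕ} (hp : p.Prime) (hd : ¬ p ∣ d) (g : G) :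
    orderOf (g ^ p) = d ↔ orderOf g = d ∨ orderOf g = p * d := by
  constructor
  · intro h
    by_cases hpg : p ∣ orderOf g
    · refine Or.inr ?_
      rw [orderOf_pow' g hp.ne_zero, Nat.gcd_eq_right hpg] at h
      rw [← h, Nat.mul_div_cancel' hpg]
    · refine Or.inl ?_
      rwa [(Nat.Coprime.orderOf_pow ((hp.coprime_iff_not_dvd.2 hpg).symm))] at h
  · rintro (h | h)
    · rw [(Nat.Coprime.orderOf_pow (h.symm ▸ (hp.coprime_iff_not_dvd.2 hd).symm)), h]
    · rw [orderOf_pow' g hp.ne_zero, h, Nat.gcd_eq_right (dvd_mul_right p d), Nat.mul_div_cancel_left _ hp.pos]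

/-- For a prime `p` of the order and `d` prime to `p`, `p` divides the number of elements of order `d` or
`p * d`. -/
theorem dvd_cnt_add {p : ℕ} [hp : Fact p.Prime] (hpG : p ∣ Nat.card G) {d : ℕ} (hd : ¬ p ∣ d) :
    p ∣ cnt G d + cnt G (p * d) := by
  classical
  obtain ⟨z, hz⟩ := exists_prime_orderOf_dvd_card' p hpG
  have hz1 : z ≠ 1 := fun e => hp.out.ne_one (by rw [← hz, e, orderOf_one])
  have hzp : z ^ p = 1 := hz ▸ pow_orderOf_eq_one z
  have hsum : cnt G d + cnt G (p * d) = Nat.card {g : G // orderOf (g ^ p) = d} := by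
    haveI : Fintype G := Fintype.ofFinite G
    rw [cnt, cnt, ← Nat.card_sum]
    refine Nat.card_congr ((Equiv.subtypeEquivRight fun g => orderOf_pow_prime hp.out hd g).trans
      (subtypeOrEquiv _ _ ?_)).symm
    rw [Pi.disjoint_iff]
    intro g
    rw [Prop.disjoint_iff]
    intro h
    have hd0 : d ≠ 0 := fun e => hd (e ▸ dvd_zero p)
    have h3 : d = p * d := h.1.symm.trans h.2
    exact hp.out.ne_one (Nat.eq_of_mul_eq_mul_right (Nat.pos_of_ne_zero hd0) (h3.symm.trans (one_mul d).symm))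
  have e : {g : G // orderOf (g ^ p) = d} ≃
      {g : G // orderOf (g ^ p) = d ∧ z * g = g * z} ⊕ {g : G // orderOf (g ^ p) = d ∧ ¬ z * g = g * z} :=
    (Equiv.sumCompl fun g : {g : G // orderOf (g ^ p) = d} => z * g.1 = g.1 * z).symm.trans
      (Equiv.sumCongr (Equiv.subtypeSubtypeEquivSubtypeInter (fun g : G => orderOf (g ^ p) = d) fun g => z * g = g * z)
        (Equiv.subtypeSubtypeEquivSubtypeInter (fun g : G => orderOf (g ^ p) = d) fun g => ¬ z * g = g * z))
  rw [hsum, Nat.card_congr e, Nat.card_sum]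
  refine dvd_add ?_ ?_
  · refine dvd_card_of_free' (fun x => x * z) _ (fun g hg => ⟨?_, ?_⟩)
      (fun g _ => by rw [iterate_mul_right, hzp, mul_one]) fun g _ e => hz1 (mul_eq_left.1 e)
    · rw [(show Commute g z from hg.2.symm).mul_pow, hzp, mul_one]; exact hg.1
    · show z * (g * z) = g * z * z
      rw [← mul_assoc, hg.2]
  · refine dvd_card_of_free' (fun x => z * x * z⁻¹) _ (fun g hg => ⟨?_, fun e => hg.2 ?_⟩)
      (fun g _ => by rw [iterate_conj, hzp, one_mul, inv_one, mul_one])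
      fun g hg e => hg.2 (mul_inv_eq_iff_eq_mul.1 e)
    · show orderOf ((z * g * z⁻¹) ^ p) = d
      rw [conj_pow, ← hg.1]
      exact MulEquiv.orderOf_eq (MulAut.conj z) (g ^ p)
    · have e' : z * (z * g * z⁻¹) = z * g * z⁻¹ * z := e
      calc z * g = z⁻¹ * (z * (z * g * z⁻¹)) * z := by group
        _ = z⁻¹ * (z * g * z⁻¹ * z) * z := by rw [e']
        _ = g * z := by group

theorem dvd_cnt_prime_succ {p : ℕ} [hp : Fact p.Prime] (hpG : p ∣ Nat.card G) : p ∣ 1 + cnt G p := by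
  have := dvd_cnt_add (G := G) hpG (d := 1) hp.out.not_dvd_one
  rwa [cnt_one, mul_one] at this

/-- The number of elements of order `p ^ 2` is a multiple of `p`. -/
theorem dvd_cnt_sq {p : ℕ} [hp : Fact p.Prime] : p ∣ cnt G (p ^ 2) := by
  have hfix : ∀ g : G, orderOf g = p ^ 2 → g ^ (1 + p) ≠ g := fun g hg e => by
    have h1 : g ^ p = 1 := by rwa [pow_add, pow_one, mul_eq_left] at e
    have h2 := Nat.le_of_dvd hp.out.pos (hg ▸ orderOf_dvd_of_pow_eq_one h1)
    have := hp.out.two_le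
    nlinarith
  refine dvd_card_of_free' (fun g => g ^ (1 + p)) _ (fun g hg => ?_) (fun g hg => ?_) hfix
  · show orderOf (g ^ (1 + p)) = p ^ 2
    have hc : p.Coprime (1 + p) := hp.out.coprime_iff_not_dvd.2 fun h =>
      hp.out.not_dvd_one ((Nat.dvd_add_left dvd_rfl).1 h)
    rw [Nat.Coprime.orderOf_pow (hg.symm ▸ Nat.Coprime.pow_left 2 hc), hg]
  · have h2 : g ^ (p * p) = 1 := by
      have := pow_orderOf_eq_one g
      rwa [hg, pow_two] at this
    have key : ∀ k, (fun g : G => g ^ (1 + p))^[k] g = g ^ (p * k + 1) := by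
      intro k
      induction k with
      | zero => simp
      | succ k ih =>
        rw [Function.iterate_succ_apply', ih]
        show (g ^ (p * k + 1)) ^ (1 + p) = _
        rw [← pow_mul, show (p * k + 1) * (1 + p) = (p * (k + 1) + 1) + p * p * k by ring, pow_add,
          pow_mul g (p * p), h2, one_pow, mul_one]
    rw [key p, pow_succ, h2, one_mul]

/-- If `p` does not divide the number of elements of order `d`, each element of order `p` commutes with one
of them. -/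
theorem mul_le_cnt {p : ℕ} [hp : Fact p.Prime] {d : ℕ} (hd : ¬ p ∣ d) (hc : ¬ p ∣ cnt G d) :
    d.totient * cnt G p ≤ cnt G (p * d) := by
  classical
  have hfix : ∀ x : {g : G // orderOf g = p}, ∃ y : {g : G // orderOf g = d}, x.1 * y.1 = y.1 * x.1 := by
    intro x
    by_contra hno
    push Not at hno
    have hxp : x.1 ^ p = 1 := orderOf_dvd_iff_pow_eq_one.1 (dvd_of_eq x.2)
    refine hc (dvd_card_of_free' (fun g => x.1 * g * x.1⁻¹) _ (fun g hg => ?_)
      (fun g _ => by rw [iterate_conj, hxp, one_mul, inv_one, mul_one])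
      fun g hg e => hno ⟨g, hg⟩ (mul_inv_eq_iff_eq_mul.1 e))
    exact (MulEquiv.orderOf_eq (MulAut.conj x.1) g).trans hg
  choose y hy using hfix
  have hd0 : 0 < d := Nat.pos_of_ne_zero fun e => hd (e ▸ dvd_zero p)
  have hcop : p.Coprime d := hp.out.coprime_iff_not_dvd.2 hd
  let f : {g : G // orderOf g = p} × {i : Fin d // Nat.Coprime i d} → {g : G // orderOf g = p * d} := fun w =>
    ⟨w.1.1 * (y w.1).1 ^ (w.2.1 : ℕ), by
      have ho : orderOf ((y w.1).1 ^ (w.2.1 : ℕ)) = d := by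
        rw [Nat.Coprime.orderOf_pow (by rw [(y w.1).2]; exact w.2.2.symm), (y w.1).2]
      rw [((show Commute w.1.1 (y w.1).1 from hy w.1).pow_right _).orderOf_mul_eq_mul_orderOf_of_coprime
        (by rw [w.1.2, ho]; exact hcop), w.1.2, ho]⟩
  have hf : Function.Injective f := by
    rintro ⟨x, i⟩ ⟨x', i'⟩ e
    have e' : x.1 * (y x).1 ^ (i.1 : ℕ) = x'.1 * (y x').1 ^ (i'.1 : ℕ) := congrArg Subtype.val e
    have hx : x = x' := by
      have hd' : ∀ (x : {g : G // orderOf g = p}) (i : ℕ), (x.1 * (y x).1 ^ i) ^ d = x.1 ^ d := fun x i => by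
        rw [((show Commute x.1 (y x).1 from hy x).pow_right _).mul_pow, ← pow_mul, mul_comm i, pow_mul,
          show (y x).1 ^ d = 1 by
            have h1 := pow_orderOf_eq_one (y x).1
            rwa [(y x).2] at h1, one_pow, mul_one]
      have h1 := hd' x i.1
      rw [e', hd'] at h1
      refine Subtype.ext (powCoprime_aux hcop ?_ ?_ h1.symm)
      · exact orderOf_dvd_iff_pow_eq_one.1 (dvd_of_eq x.2)
      · exact orderOf_dvd_iff_pow_eq_one.1 (dvd_of_eq x'.2)
    subst hx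
    have h2 := mul_left_cancel e'
    rw [pow_inj_mod, (y x).2, Nat.mod_eq_of_lt i.1.2, Nat.mod_eq_of_lt i'.1.2] at h2
    exact Prod.ext rfl (Subtype.ext (Fin.ext h2))
  have h := Nat.card_le_card_of_injective f hf
  rw [Nat.card_prod] at h
  have htot : Nat.card {i : Fin d // Nat.Coprime i d} = d.totient := by
    rw [Nat.card_eq_fintype_card, Fintype.card_subtype, Nat.totient_eq_card_coprime]
    refine Finset.card_bij (fun i _ => (i : ℕ)) ?_ ?_ ?_
    · intro i hi
      simp only [Finset.mem_filter, Finset.mem_univ, true_and] at hi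
      simp only [Finset.mem_filter, Finset.mem_range]
      exact ⟨i.2, hi.symm⟩
    · intro i _ j _ hij; exact Fin.ext hij
    · intro i hi
      simp only [Finset.mem_filter, Finset.mem_range] at hi
      exact ⟨⟨i, hi.1⟩, Finset.mem_filter.2 ⟨Finset.mem_univ _, hi.2.symm⟩, rfl⟩
  rw [htot, mul_comm] at h
  exact h
where
  powCoprime_aux {p d : ℕ} (hcop : p.Coprime d) {a b : G} (ha : a ^ p = 1) (hb : b ^ p = 1)
      (h : a ^ d = b ^ d) : a = b := by
    have key : ∀ c : G, c ^ p = 1 → c = (c ^ d) ^ (Nat.gcdB p d) := fun c hc => by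
      have h1 : c ^ ((Nat.gcd p d : ℕ) : ℤ) = c := by rw [hcop.gcd_eq_one, Nat.cast_one, zpow_one]
      rw [Nat.gcd_eq_gcd_ab, zpow_add, zpow_mul, zpow_mul, zpow_natCast, zpow_natCast, hc, one_zpow, one_mul] at h1
      exact h1.symm
    rw [key a ha, key b hb, h]

/-- A Sylow subgroup for a prime all whose elements have order `p` has order dividing one more than their
number. -/
theorem card_sylow_dvd {p : ℕ} [hp : Fact p.Prime] (hexp : cnt G (p ^ 2) = 0) (P : Sylow p G) :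
    Nat.card (P : Subgroup G) ∣ 1 + cnt G p := by
  classical
  refine (CfsgLib.ElementOrders.card_sylow_dvd_card_pElements P).trans (dvd_of_eq ?_)
  rw [← cnt_one (G := G), cnt, cnt, ← Nat.card_sum]
  have h2 : ∀ g : G, (∃ k : ℕ, orderOf g = p ^ k) ↔ orderOf g = 1 ∨ orderOf g = p := by
    intro g
    refine ⟨fun ⟨k, hk⟩ => ?_, fun h => ?_⟩
    · match k, hk with
      | 0, hk => exact Or.inl (by rw [hk, pow_zero])
      | 1, hk => exact Or.inr (by rw [hk, pow_one])
      | k + 2, hk =>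
        exfalso
        refine cnt_ne_zero.2 ⟨g ^ p ^ k, ?_⟩ hexp
        rw [orderOf_pow' g (pow_ne_zero _ hp.out.ne_zero), hk, Nat.gcd_eq_right (pow_dvd_pow p (by omega)),
          Nat.pow_div (by omega) hp.out.pos, show k + 2 - k = 2 by omega]
    · rcases h with h | h
      · exact ⟨0, by rw [h, pow_zero]⟩
      · exact ⟨1, by rw [h, pow_one]⟩
  refine Nat.card_congr ((Equiv.subtypeEquivRight h2).trans (subtypeOrEquiv _ _ ?_))
  rw [Pi.disjoint_iff]
  intro g
  rw [Prop.disjoint_iff]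
  exact fun h => hp.out.ne_one (h.2.symm.trans h.1)

/-- What three counts mean for odd primes: away from `2` all counts are `a` or `b`. -/
structure TwoVals (G : Type u) [Group G] (a b : ℕ) : Prop where
  vals : ∀ g : G, 3 ≤ orderOf g → cnt G (orderOf g) = a ∨ cnt G (orderOf g) = b
  ne : a ≠ b
  ha : 0 < a
  hb : 0 < b

theorem TwoVals.symm {a b : ℕ} (h : TwoVals G a b) : TwoVals G b a :=
  ⟨fun g hg => (h.vals g hg).symm, h.ne.symm, h.hb, h.ha⟩

theorem TwoVals.cases {a b : ℕ} (h : TwoVals G a b) {d : ℕ} (hd : 3 ≤ d) (hne : cnt G d ≠ 0) :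
    cnt G d = a ∨ cnt G d = b := by
  obtain ⟨g, hg⟩ := cnt_ne_zero.1 hne
  subst hg
  exact h.vals g hd

theorem TwoVals.of_le {a b : ℕ} (h : TwoVals G a b) {d : ℕ} (hd : 3 ≤ d) (hle : 2 * a ≤ cnt G d) :
    cnt G d = b := by
  have := h.ha
  rcases h.cases hd (by omega) with e | e
  · omega
  · exact e

theorem three_le_mul {p q : ℕ} (hp : 3 ≤ p) (hq : 1 ≤ q) : 3 ≤ p * q :=
  hp.trans (Nat.le_mul_of_pos_right p hq)

theorem two_le_totient {d : ℕ} (hd : 3 ≤ d) : 2 ≤ d.totient := by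
  obtain ⟨k, hk⟩ := Nat.totient_even (show 2 < d by omega)
  have := Nat.totient_pos.2 (show 0 < d by omega)
  omega

theorem not_dvd_of_prime {p q : ℕ} (hp : p.Prime) (hq : q.Prime) (hne : p ≠ q) : ¬ p ∣ q :=
  fun h => hne ((Nat.prime_dvd_prime_iff_eq hp hq).1 h)

theorem not_dvd_two {p : ℕ} (hp : 3 ≤ p) : ¬ p ∣ 2 := fun h => by
  have := Nat.le_of_dvd two_pos h; omega

/-- Two odd primes with the same count. -/
theorem TwoVals.same_class {a b p q : ℕ} [hp : Fact p.Prime] [hq : Fact q.Prime] (h : TwoVals G a b)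
    (hpG : p ∣ Nat.card G) (hqG : q ∣ Nat.card G) (hne : p ≠ q) (hp3 : 3 ≤ p) (hq3 : 3 ≤ q)
    (hpa : cnt G p = a) (hqa : cnt G q = a) :
    cnt G (p * q) = b ∧ 2 * a ≤ b ∧ p ∣ a + b ∧ ¬ p ∣ a ∧ ¬ p ∣ b := by
  have hpq := not_dvd_of_prime hp.out hq.out hne
  have hpa' : ¬ p ∣ a := fun hd => by
    have := dvd_cnt_prime_succ (G := G) hpG
    rw [hpa] at this
    exact hp.out.not_dvd_one ((Nat.dvd_add_left hd).1 this)
  have h1 := mul_le_cnt (G := G) hpq (hqa.symm ▸ hpa')
  rw [hpa] at h1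
  have h2 : 2 * a ≤ cnt G (p * q) := (Nat.mul_le_mul_right a (two_le_totient hq3)).trans h1
  have hb : cnt G (p * q) = b := h.of_le (three_le_mul hp3 hq.out.one_le) h2
  have h3 := dvd_cnt_add (G := G) hpG hpq
  rw [hqa, hb] at h3
  exact ⟨hb, hb ▸ h2, h3, hpa', fun hd => hpa' ((Nat.dvd_add_left hd).1 h3)⟩

/-- A third odd prime joins the class of two equal ones. -/
theorem TwoVals.third {a b p q r : ℕ} [hp : Fact p.Prime] [hq : Fact q.Prime] [hr : Fact r.Prime]
    (h : TwoVals G a b) (hpG : p ∣ Nat.card G) (hqG : q ∣ Nat.card G) (hrG : r ∣ Nat.card G) (hne : p ≠ q)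
    (hp3 : 3 ≤ p) (hq3 : 3 ≤ q) (hr3 : 3 ≤ r) (hpa : cnt G p = a) (hqa : cnt G q = a) : cnt G r = a := by
  by_cases hrp : r = p
  · subst hrp; exact hpa
  refine (h.cases hr3 (cnt_ne_zero_of_prime hrG)).resolve_right fun hrb => ?_
  obtain ⟨-, -, -, hpa', hpb⟩ := h.same_class hpG hqG hne hp3 hq3 hpa hqa
  have hpr := not_dvd_of_prime hp.out hr.out (Ne.symm hrp)
  have h1 := mul_le_cnt (G := G) hpr (hrb.symm ▸ hpb)
  rw [hpa] at h1
  have hb := h.of_le (three_le_mul hp3 hr.out.one_le) ((Nat.mul_le_mul_right a (two_le_totient hr3)).trans h1)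
  have h3 := dvd_cnt_add (G := G) hpG hpr
  rw [hrb, hb, ← two_mul] at h3
  exact hpb ((hp.out.dvd_mul.1 h3).resolve_left (not_dvd_two hp3))

/-- Two odd primes with different counts: no element of their product order. -/
theorem TwoVals.diff_class {a b p q : ℕ} [hp : Fact p.Prime] [hq : Fact q.Prime] (h : TwoVals G a b)
    (hpG : p ∣ Nat.card G) (hqG : q ∣ Nat.card G) (hne : p ≠ q) (hp3 : 3 ≤ p) (hq3 : 3 ≤ q)
    (hpa : cnt G p = a) (hqb : cnt G q = b) : p ∣ b ∧ q ∣ a ∧ cnt G (p * q) = 0 := by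
  have key : ∀ {a b p q : ℕ} [Fact p.Prime] [Fact q.Prime], TwoVals G a b → p ∣ Nat.card G → p ≠ q → 3 ≤ p →
      3 ≤ q → cnt G p = a → cnt G q = b → p ∣ b := by
    intro a b p q hp hq h hpG hne hp3 hq3 hpa hqb
    by_contra hpb
    have hpq := not_dvd_of_prime hp.out hq.out hne
    have h1 := mul_le_cnt (G := G) hpq (hqb.symm ▸ hpb)
    rw [hpa] at h1
    have hb := h.of_le (three_le_mul hp3 hq.out.one_le) ((Nat.mul_le_mul_right a (two_le_totient hq3)).trans h1)
    have h3 := dvd_cnt_add (G := G) hpG hpq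
    rw [hqb, hb, ← two_mul] at h3
    exact hpb ((hp.out.dvd_mul.1 h3).resolve_left (not_dvd_two hp3))
  have hpb := key h hpG hne hp3 hq3 hpa hqb
  have hqa := key h.symm hqG hne.symm hq3 hp3 hqb hpa
  refine ⟨hpb, hqa, ?_⟩
  by_contra h0
  rcases h.cases (three_le_mul hp3 hq.out.one_le) h0 with e | e
  · have h3 := dvd_cnt_add (G := G) hpG (not_dvd_of_prime hp.out hq.out hne)
    rw [hqb, e] at h3
    have h4 := dvd_cnt_prime_succ (G := G) hpG
    rw [hpa] at h4
    exact hp.out.not_dvd_one ((Nat.dvd_add_left ((Nat.dvd_add_right hpb).1 h3)).1 h4)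
  · have h3 := dvd_cnt_add (G := G) hqG (not_dvd_of_prime hq.out hp.out hne.symm)
    rw [hpa, mul_comm, e] at h3
    have h4 := dvd_cnt_prime_succ (G := G) hqG
    rw [hqb] at h4
    exact hq.out.not_dvd_one ((Nat.dvd_add_left ((Nat.dvd_add_right hqa).1 h3)).1 h4)

/-- A prime in a class with another one has no element of order its square. -/
theorem TwoVals.sq_same {a b p q : ℕ} [hp : Fact p.Prime] [hq : Fact q.Prime] (h : TwoVals G a b)
    (hpG : p ∣ Nat.card G) (hqG : q ∣ Nat.card G) (hne : p ≠ q) (hp3 : 3 ≤ p) (hq3 : 3 ≤ q)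
    (hpa : cnt G p = a) (hqa : cnt G q = a) : cnt G (p ^ 2) = 0 := by
  obtain ⟨-, -, -, hpa', hpb⟩ := h.same_class hpG hqG hne hp3 hq3 hpa hqa
  by_contra h0
  have h2 := dvd_cnt_sq (G := G) (p := p)
  rcases h.cases (hp3.trans (Nat.le_self_pow two_ne_zero p)) h0 with e | e
  · exact hpa' (e ▸ h2)
  · exact hpb (e ▸ h2)

/-- A prime in a class different from another one has no element of order its square. -/
theorem TwoVals.sq_diff {a b p q : ℕ} [hp : Fact p.Prime] [hq : Fact q.Prime] (h : TwoVals G a b)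
    (hpG : p ∣ Nat.card G) (hqG : q ∣ Nat.card G) (hne : p ≠ q) (hp3 : 3 ≤ p) (hq3 : 3 ≤ q)
    (hpa : cnt G p = a) (hqb : cnt G q = b) : cnt G (p ^ 2) = 0 := by
  obtain ⟨hpb, hqa, hpq0⟩ := h.diff_class hpG hqG hne hp3 hq3 hpa hqb
  by_contra h0
  have hpa' : ¬ p ∣ a := fun hd => by
    have := dvd_cnt_prime_succ (G := G) hpG
    rw [hpa] at this
    exact hp.out.not_dvd_one ((Nat.dvd_add_left hd).1 this)
  have hb : cnt G (p ^ 2) = b := (h.cases (hp3.trans (Nat.le_self_pow two_ne_zero p)) h0).resolve_left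
    fun e => hpa' (e ▸ dvd_cnt_sq)
  have hqp : ¬ q ∣ p ^ 2 := fun hd => not_dvd_of_prime hq.out hp.out hne.symm (hq.out.dvd_of_dvd_pow hd)
  have h3 := dvd_cnt_add (G := G) hqG hqp
  have h5 : cnt G (q * p ^ 2) = 0 := by
    by_contra h5
    obtain ⟨g, hg⟩ := cnt_ne_zero.1 h5
    refine cnt_ne_zero.2 ⟨g ^ p, ?_⟩ hpq0
    rw [orderOf_pow' g hp.out.ne_zero, hg, Nat.gcd_eq_right (Dvd.dvd.mul_left (dvd_pow_self p two_ne_zero) q)]
    rw [pow_two, ← mul_assoc, Nat.mul_div_cancel _ hp.out.pos, mul_comm]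
  rw [h5, hb, add_zero] at h3
  have h4 := dvd_cnt_prime_succ (G := G) hqG
  rw [hqb] at h4
  exact hq.out.not_dvd_one ((Nat.dvd_add_left h3).1 h4)

/-- Two odd primes with equal counts exclude elements of order four. -/
theorem TwoVals.four_same {a b p q : ℕ} [hp : Fact p.Prime] [hq : Fact q.Prime] (h : TwoVals G a b)
    (hpG : p ∣ Nat.card G) (hqG : q ∣ Nat.card G) (hne : p ≠ q) (hp3 : 3 ≤ p) (hq3 : 3 ≤ q)
    (hpa : cnt G p = a) (hqa : cnt G q = a) : cnt G 4 = 0 := by
  obtain ⟨-, -, hab, hpa', hpb⟩ := h.same_class hpG hqG hne hp3 hq3 hpa hqa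
  obtain ⟨-, -, -, hqa', hqb⟩ := h.same_class hqG hpG hne.symm hq3 hp3 hqa hpa
  have key : ∀ {r : ℕ} [Fact r.Prime], r ∣ Nat.card G → 3 ≤ r → cnt G r = a → ¬ r ∣ a → ¬ r ∣ b →
      cnt G 4 ≠ 0 → cnt G 4 = a ∧ cnt G (r * 4) = b := by
    intro r hr hrG hr3 hra hra' hrb h4
    have hr4 : ¬ r ∣ 4 := fun hd => not_dvd_two hr3 ((hr.out.dvd_mul.1 (show r ∣ 2 * 2 from hd)).elim id id)
    rcases h.cases (by norm_num) h4 with e | e
    · have h1 := mul_le_cnt (G := G) hr4 (e.symm ▸ hra')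
      rw [hra] at h1
      exact ⟨e, h.of_le (three_le_mul hr3 (by norm_num))
        ((Nat.mul_le_mul_right a (two_le_totient (by norm_num))).trans h1)⟩
    · exfalso
      have h1 := mul_le_cnt (G := G) hr4 (e.symm ▸ hrb)
      rw [hra] at h1
      have hb := h.of_le (three_le_mul hr3 (by norm_num))
        ((Nat.mul_le_mul_right a (two_le_totient (by norm_num))).trans h1)
      have h3 := dvd_cnt_add (G := G) hrG hr4
      rw [e, hb, ← two_mul] at h3
      exact hrb ((hr.out.dvd_mul.1 h3).resolve_left (not_dvd_two hr3))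
  by_contra h4
  obtain ⟨-, h4q⟩ := key hqG hq3 hqa hqa' hqb h4
  have hd : ¬ p ∣ q * 4 := fun hd => by
    rcases hp.out.dvd_mul.1 hd with h' | h'
    · exact not_dvd_of_prime hp.out hq.out hne h'
    · exact not_dvd_two hp3 ((hp.out.dvd_mul.1 (show p ∣ 2 * 2 from h')).elim id id)
  have h1 := mul_le_cnt (G := G) hd (h4q.symm ▸ hpb)
  rw [hpa] at h1
  have hq4 : 3 ≤ q * 4 := three_le_mul hq3 (by norm_num)
  have hb := h.of_le (three_le_mul hp3 (by omega)) ((Nat.mul_le_mul_right a (two_le_totient hq4)).trans h1)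
  have h3 := dvd_cnt_add (G := G) hpG hd
  rw [h4q, hb, ← two_mul] at h3
  exact hpb ((hp.out.dvd_mul.1 h3).resolve_left (not_dvd_two hp3))

/-- Two odd primes with different counts exclude elements of order four. -/
theorem TwoVals.four_diff {a b p q : ℕ} [hp : Fact p.Prime] [hq : Fact q.Prime] (h : TwoVals G a b)
    (hpG : p ∣ Nat.card G) (hqG : q ∣ Nat.card G) (hne : p ≠ q) (hp3 : 3 ≤ p) (hq3 : 3 ≤ q)
    (hpa : cnt G p = a) (hqb : cnt G q = b) : cnt G 4 = 0 := by
  have key : ∀ {a b p : ℕ} [Fact p.Prime], TwoVals G a b → p ∣ Nat.card G → 3 ≤ p → cnt G p = a → p ∣ b →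
      cnt G 4 ≠ a := by
    intro a b p hp h hpG hp3 hpa hpb e
    have hp4 : ¬ p ∣ 4 := fun hd => not_dvd_two hp3 ((hp.out.dvd_mul.1 (show p ∣ 2 * 2 from hd)).elim id id)
    have hpa' : ¬ p ∣ a := fun hd => by
      have := dvd_cnt_prime_succ (G := G) hpG
      rw [hpa] at this
      exact hp.out.not_dvd_one ((Nat.dvd_add_left hd).1 this)
    have h1 := mul_le_cnt (G := G) hp4 (e.symm ▸ hpa')
    rw [hpa] at h1
    have hb := h.of_le (three_le_mul hp3 (by norm_num))
      ((Nat.mul_le_mul_right a (two_le_totient (by norm_num))).trans h1)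
    have h3 := dvd_cnt_add (G := G) hpG hp4
    rw [e, hb] at h3
    exact hpa' ((Nat.dvd_add_left hpb).1 h3)
  obtain ⟨hpb, hqa, -⟩ := h.diff_class hpG hqG hne hp3 hq3 hpa hqb
  by_contra h4
  rcases h.cases (by norm_num) h4 with e | e
  · exact key h hpG hp3 hpa hpb e
  · exact key h.symm hqG hq3 hqb hqa e

end CfsgLib.SchurExt.ThreeCounts

namespace CfsgLib.SchurExt.ThreeCounts

universe v

variable {G : Type v} [Group G] [Finite G]

/-- From a set of three counts: two values besides `1`. -/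
theorem exists_vals (h : (((fun m : ℕ => Nat.card {g : G // orderOf g = m}) '' Set.range (orderOf : G → ℕ))).ncard = 3) :
    ∃ a b : ℕ, a ≠ b ∧ a ≠ 1 ∧ b ≠ 1 ∧ 0 < a ∧ 0 < b ∧ (∀ g : G, cnt G (orderOf g) ∈ ({1, a, b} : Set ℕ)) ∧
      (∀ g : G, 3 ≤ orderOf g → cnt G (orderOf g) = a ∨ cnt G (orderOf g) = b) := by
  set S := (fun m : ℕ => Nat.card {g : G // orderOf g = m}) '' Set.range (orderOf : G → ℕ) with hS
  have h1 : (1 : ℕ) ∈ S := ⟨1, ⟨1, orderOf_one⟩, cnt_one⟩
  have h2 : (S \ {1}).ncard = 2 := by rw [Set.ncard_diff_singleton_of_mem h1, h]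
  obtain ⟨a, b, hab, hs⟩ := Set.ncard_eq_two.1 h2
  have ha : a ∈ S \ {1} := hs ▸ Or.inl rfl
  have hb : b ∈ S \ {1} := hs ▸ Or.inr rfl
  have hpos : ∀ c ∈ S, 0 < c := by
    rintro - ⟨m, ⟨g, hg⟩, rfl⟩
    exact Nat.pos_of_ne_zero ((cnt_ne_zero (G := G) (d := m)).2 ⟨g, hg⟩)
  have hmem : ∀ g : G, cnt G (orderOf g) ∈ S := fun g => ⟨_, ⟨g, rfl⟩, rfl⟩
  have hcase : ∀ g : G, cnt G (orderOf g) ≠ 1 → cnt G (orderOf g) = a ∨ cnt G (orderOf g) = b := by
    intro g hg
    have h3 : cnt G (orderOf g) ∈ S \ {1} := ⟨hmem g, hg⟩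
    rw [hs] at h3
    exact h3
  refine ⟨a, b, hab, ha.2, hb.2, hpos a ha.1, hpos b hb.1, fun g => ?_, fun g hg => hcase g fun e => ?_⟩
  · by_cases hg : cnt G (orderOf g) = 1
    · exact Or.inl hg
    · exact Or.inr (hcase g hg)
  · have := even_cnt (G := G) hg
    omega

theorem card_ge_sum {ι : Type} [Fintype ι] (d : ι → ℕ) (hd : Function.Injective d) :
    ∑ i, cnt G (d i) ≤ Nat.card G := by
  have h : Nat.card (Σ i, {g : G // orderOf g = d i}) ≤ Nat.card G := by
    refine Nat.card_le_card_of_injective (fun w => w.2.1) ?_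
    rintro ⟨i, g, hg⟩ ⟨j, g', hg'⟩ e
    obtain rfl : g = g' := e
    obtain rfl : i = j := hd (hg.symm.trans hg')
    rfl
  rwa [Nat.card_sigma] at h

theorem sylow_card_le {p : ℕ} [hp : Fact p.Prime] {n : ℕ} (hn : n ≠ 0)
    (h : ∀ P : Sylow p G, Nat.card (P : Subgroup G) ∣ n) : (Nat.card G).factorization p ≤ n.factorization p := by
  obtain ⟨P⟩ := (inferInstance : Nonempty (Sylow p G))
  have h1 := h P
  rw [P.card_eq_multiplicity] at h1
  exact (hp.out.pow_dvd_iff_le_factorization hn).1 h1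

theorem TwoVals.all_or_two {a b : ℕ} (h : TwoVals G a b)
    (hne : ∀ p q : ℕ, p.Prime → q.Prime → p ≠ q → 3 ≤ p → 3 ≤ q → p ∣ Nat.card G → q ∣ Nat.card G →
      cnt G p ≠ cnt G q) :
    ((Nat.card G).primeFactors.filter (fun r => 3 ≤ r)).card ≤ 2 := by
  set O := (Nat.card G).primeFactors.filter (fun r => 3 ≤ r) with hO
  by_contra h3
  have hO' : ∀ r ∈ O, r.Prime ∧ r ∣ Nat.card G ∧ 3 ≤ r := fun r hr => by
    simp only [hO, Finset.mem_filter, Nat.mem_primeFactors] at hr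
    exact ⟨hr.1.1, hr.1.2.1, hr.2⟩
  obtain ⟨p, q, r, hp, hq, hr, hpq, hpr, hqr⟩ := Finset.two_lt_card_iff.1 (show 2 < O.card by omega)
  obtain ⟨hp1, hp2, hp3⟩ := hO' p hp
  obtain ⟨hq1, hq2, hq3⟩ := hO' q hq
  obtain ⟨hr1, hr2, hr3⟩ := hO' r hr
  haveI := Fact.mk hp1
  haveI := Fact.mk hq1
  haveI := Fact.mk hr1
  have e1 := hne p q hp1 hq1 hpq hp3 hq3 hp2 hq2
  have e2 := hne p r hp1 hr1 hpr hp3 hr3 hp2 hr2
  have e3 := hne q r hq1 hr1 hqr hq3 hr3 hq2 hr2
  rcases h.cases hp3 (cnt_ne_zero_of_prime hp2) with x | x <;>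
    rcases h.cases hq3 (cnt_ne_zero_of_prime hq2) with y | y <;>
    rcases h.cases hr3 (cnt_ne_zero_of_prime hr2) with z | z <;> omega

/-- Two odd primes with equal counts cannot occur when the `2`-part is at most two. -/
theorem TwoVals.not_same {a b : ℕ} (h : TwoVals G a b) {p q : ℕ} [hp : Fact p.Prime] [hq : Fact q.Prime]
    (hne : p ≠ q) (hp3 : 3 ≤ p) (hq3 : 3 ≤ q) (hpG : p ∣ Nat.card G) (hqG : q ∣ Nat.card G)
    (h2 : ¬ 2 ∣ Nat.card G ∨ (cnt G 2 = 1 ∧ 2 ∣ Nat.card G)) : cnt G p ≠ cnt G q := by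
  intro he
  wlog hpa : cnt G p = a generalizing a b
  · exact this h.symm ((h.cases hp3 (cnt_ne_zero_of_prime hpG)).resolve_left hpa)
  have hqa : cnt G q = a := he ▸ hpa
  obtain ⟨hpq, -, -, -, -⟩ := h.same_class hpG hqG hne hp3 hq3 hpa hqa
  have hodd : ∀ (r : ℕ) [Fact r.Prime], 3 ≤ r → r ∣ Nat.card G →
      ∀ R : Sylow r G, Nat.card (R : Subgroup G) ∣ a + 1 := by
    intro r hr hr3 hrG R
    have hra : cnt G r = a := h.third hpG hqG hrG hne hp3 hq3 hr3 hpa hqa
    have hsq : cnt G (r ^ 2) = 0 := by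
      by_cases hrp : r = p
      · subst hrp; exact h.sq_same hrG hqG hne hr3 hq3 hra hqa
      · exact h.sq_same hrG hpG hrp hr3 hp3 hra hpa
    rw [add_comm, ← hra]
    exact card_sylow_dvd hsq R
  have h1pq : p * q ≠ 1 ∧ p * q ≠ p ∧ p * q ≠ 2 * p ∧ p * q ≠ 2 := by
    refine ⟨?_, ?_, ?_, ?_⟩ <;> intro e <;> nlinarith
  have hb := h.hb
  have key : ∀ n : ℕ, n ≠ 0 → (∀ (r : ℕ) [Fact r.Prime], r ∣ Nat.card G → ∀ R : Sylow r G,
      Nat.card (R : Subgroup G) ∣ n) → Nat.card G ≤ n := by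
    intro n hn hdiv
    refine Nat.le_of_dvd (Nat.pos_of_ne_zero hn) ((Nat.factorization_prime_le_iff_dvd Nat.card_pos.ne' hn).1 fun r hr => ?_)
    haveI := Fact.mk hr
    by_cases hrd : r ∣ Nat.card G
    · exact sylow_card_le hn fun R => hdiv r hrd R
    · rw [Nat.factorization_eq_zero_of_not_dvd hrd]; exact Nat.zero_le _
  rcases h2 with h2 | ⟨h21, h2G⟩
  · have hle := key (a + 1) (by omega) fun r hr hrG R => hodd r (by
      have := hr.out.two_le
      rcases eq_or_ne r 2 with rfl | hne'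
      · exact absurd hrG h2
      · omega) hrG R
    have hge := card_ge_sum (G := G) ![1, p, p * q] (by
      intro i j e
      fin_cases i <;> fin_cases j <;> simp at e ⊢ <;> omega)
    simp [Fin.sum_univ_three, cnt_one, hpa, hpq] at hge
    omega
  · haveI : Fact (Nat.Prime 2) := ⟨Nat.prime_two⟩
    have h4 : cnt G (2 ^ 2) = 0 := h.four_same hpG hqG hne hp3 hq3 hpa hqa
    have hle := key (2 * (a + 1)) (by omega) fun r hr hrG R => by
      rcases eq_or_ne r 2 with rfl | hne'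
      · have := card_sylow_dvd h4 R
        rw [h21] at this
        exact this.trans (dvd_mul_right _ _)
      · exact (hodd r (by have := hr.out.two_le; omega) hrG R).trans (dvd_mul_left _ _)
    have h2p : a ≤ cnt G (p * 2) := by
      have := mul_le_cnt (G := G) (not_dvd_two hp3) (by rw [h21]; exact hp.out.not_dvd_one)
      rwa [Nat.totient_two, one_mul, hpa] at this
    have hge := card_ge_sum (G := G) ![1, 2, p, p * 2, p * q] (by
      intro i j e
      fin_cases i <;> fin_cases j <;> simp at e ⊢ <;> omega)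
    simp [Fin.sum_univ_five, cnt_one, h21, hpa, hpq] at hge
    omega

/-- Two odd primes have different counts whenever all other counts are even. -/
theorem TwoVals.not_same_of_odd_value {a b : ℕ} (h : TwoVals G a b) (ha : ¬ 2 ∣ a) {p q : ℕ}
    [hp : Fact p.Prime] [hq : Fact q.Prime] (hne : p ≠ q) (hp3 : 3 ≤ p) (hq3 : 3 ≤ q)
    (hpG : p ∣ Nat.card G) (hqG : q ∣ Nat.card G) : False := by
  have hval : ∀ {d : ℕ}, 3 ≤ d → cnt G d ≠ 0 → cnt G d = b := fun hd h0 =>
    (h.cases hd h0).resolve_left fun e => ha (e ▸ even_cnt hd)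
  obtain ⟨hpq, -, -⟩ := h.symm.same_class hpG hqG hne hp3 hq3 (hval hp3 (cnt_ne_zero_of_prime hpG))
    (hval hq3 (cnt_ne_zero_of_prime hqG))
  exact ha (hpq ▸ even_cnt (three_le_mul hp3 hq.out.one_le))

end CfsgLib.SchurExt.ThreeCounts
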