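import Mathlib
import Cfsg.Prelude.Def_Solvable
import Cfsg.Agent.Lib.Frobenius.Kernel
import Cfsg.Agent.Lib.Cores.FPF
import Cfsg.Agent.Lib.Cores.FPFComplement
import Cfsg.Agent.Lib.NormalPComplement.FixedPointFree
import Cfsg.Agent.Lib.SchurExt.Elementary
import Cfsg.Agent.Lib.OrderDegrees.Coclique
import Cfsg.Agent.Lib.CoprimeAction.Sylow

/-!
The structure of a 2-Frobenius group.
-/

set_option autoImplicit false

namespace CfsgLib.SchurExt

variable {G : Type*} [Group G] [Finite G]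

/-- A group with a Frobenius complement whose kernel is the normal subgroup `N`. -/
theorem frobenius_split {C : Subgroup G} (hC : Cfsg.IsFrobeniusComplement C) (N : Subgroup G) [N.Normal]
    (hN : Cfsg.frobeniusKernel C = (N : Set G)) :
    N.IsComplement' C ∧ N ≠ ⊥ ∧ Group.IsNilpotent N ∧ N.index = Nat.card C ∧
      (Nat.card N).Coprime (Nat.card C) ∧
      ∀ c ∈ C, c ≠ 1 → ∀ k ∈ N, c * k = k * c → k = 1 := by
  obtain ⟨M, hM, -, hc⟩ := CfsgLib.Frobenius.exists_kernel hC
  obtain rfl : M = N := SetLike.coe_injective (hM.trans hN)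
  have h1 := CfsgLib.Frobenius.card_kernel hC
  rw [← hM] at h1
  have hne : M ≠ ⊥ := by
    intro hb
    subst hb
    simp only [SetLike.coe_sort_coe, Subgroup.card_bot] at h1
    exact absurd (CfsgLib.Frobenius.one_lt_index hC) (by omega)
  refine ⟨hc, hne, CfsgLib.NormalPComplement.isNilpotent_frobeniusKernel hC M hM,
    hc.symm.index_eq_card, ?_, (CfsgLib.Frobenius.isFrobeniusComplement_iff_fpf M C hc hne hC.1).1 hC⟩
  have h := CfsgLib.Frobenius.coprime_card_index hC
  rw [hc.index_eq_card] at h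
  exact h.symm

/-- A nilpotent group has commuting elements of the Sylow subgroups for distinct primes. -/
theorem commute_of_nilpotent {N : Type*} [Group N] [Finite N] (hN : Group.IsNilpotent N) {p q : ℕ}
    [Fact p.Prime] [Fact q.Prime] (hpq : p ≠ q) {x y : N} (hx : orderOf x = p) (hy : orderOf y = q) :
    Commute x y := by
  have hS : ∀ (r : ℕ) (hr : Fact r.Prime) (P : Sylow r N), (P : Subgroup N).Normal :=
    fun r hr P => by
      have h3 := ((Group.isNilpotent_of_finite_tfae (G := N)).out 0 3 :)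
      exact (h3.1 hN) r hr P
  obtain ⟨P⟩ := (inferInstance : Nonempty (Sylow p N))
  obtain ⟨Q⟩ := (inferInstance : Nonempty (Sylow q N))
  refine Subgroup.commute_of_normal_of_disjoint (P : Subgroup N) Q (hS p inferInstance P)
    (hS q inferInstance Q) ?_ x y (mem_sylow_of_normal P (hS p inferInstance P) (a := 1) (by rw [pow_one, hx]))
    (mem_sylow_of_normal Q (hS q inferInstance Q) (a := 1) (by rw [pow_one, hy]))
  refine IsPGroup.disjoint_of_ne p q hpq _ _ P.isPGroup' Q.isPGroup'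

/-- All data of a 2-Frobenius group `1 < H < K < G`. -/
structure IsTwoFrobenius (H K : Subgroup G) [H.Normal] : Prop where
  lt : H < K
  nilpotent : Group.IsNilpotent H
  solvable : Group.IsSolvable G
  odd : Odd (H.relIndex K)
  cyclic_mid : IsCyclic (K.map (QuotientGroup.mk' H))
  card_mid : Nat.card (K.map (QuotientGroup.mk' H)) = H.relIndex K
  cyclic_top : ∃ C : Subgroup (G ⧸ H), IsCyclic C ∧ (K.map (QuotientGroup.mk' H)).IsComplement' C ∧
    Nat.card C = K.index ∧ C ≠ ⊥ ∧
    ∀ c ∈ C, c ≠ 1 → ∀ k ∈ K.map (QuotientGroup.mk' H), c * k = k * c → k = 1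
  coprime_bot : (H.relIndex K).Coprime (Nat.card H)
  coprime_top : (H.relIndex K).Coprime K.index
  no_commute : ∀ x ∈ K, x ∉ H → ∀ y ∈ H, x * y = y * x → y = 1

theorem isTwoFrobenius (H K : Subgroup G) [H.Normal] [K.Normal] (hlt : H < K)
    (hK : ∃ C : Subgroup ↥K, Cfsg.IsFrobeniusComplement C ∧ Cfsg.frobeniusKernel C = (H.subgroupOf K : Set ↥K))
    (hGH : ∃ C : Subgroup (G ⧸ H), Cfsg.IsFrobeniusComplement C ∧
      Cfsg.frobeniusKernel C = (K.map (QuotientGroup.mk' H) : Set (G ⧸ H))) : IsTwoFrobenius H K := by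
  obtain ⟨D, hD, hDk⟩ := hK
  obtain ⟨C, hC, hCk⟩ := hGH
  haveI : (K.map (QuotientGroup.mk' H)).Normal :=
    Subgroup.Normal.map inferInstance _ (QuotientGroup.mk'_surjective H)
  obtain ⟨hDc, hDne, hDnil, hDidx, hDcop, hDfpf⟩ := frobenius_split hD (H.subgroupOf K) hDk
  obtain ⟨hCc, hCne, hCnil, hCidx, hCcop, hCfpf⟩ := frobenius_split hC (K.map (QuotientGroup.mk' H)) hCk
  set B := K.map (QuotientGroup.mk' H) with hB
  have hDcard : Nat.card D = H.relIndex K := hDidx.symm
  have hBcard : Nat.card B = H.relIndex K := by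
    rw [← Subgroup.relIndex_ker K (QuotientGroup.mk' H), QuotientGroup.ker_mk']
  have hCcard : Nat.card C = K.index := by
    rw [← hCidx, hB, Subgroup.index_map_eq _ (QuotientGroup.mk'_surjective H)
      (by rw [QuotientGroup.ker_mk']; exact hlt.le)]
  have hcardH : Nat.card (H.subgroupOf K) = Nat.card H :=
    Nat.card_congr (Subgroup.subgroupOfEquivOfLe hlt.le).toEquiv
  let ψ : D →* B := ((QuotientGroup.mk' H).subgroupMap K).comp D.subtype
  have hψ : Function.Injective ψ := by
    rw [← MonoidHom.ker_eq_bot_iff, Subgroup.eq_bot_iff_forall]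
    intro d hd
    have h1 : ((d : K) : G) ∈ H := (QuotientGroup.eq_one_iff _).1 (congrArg Subtype.val (MonoidHom.mem_ker.1 hd))
    have h2 : (d : K) ∈ H.subgroupOf K ⊓ D := Subgroup.mem_inf.2 ⟨Subgroup.mem_subgroupOf.2 h1, d.2⟩
    rw [disjoint_iff.1 hDc.disjoint, Subgroup.mem_bot] at h2
    exact Subtype.ext h2
  have hψb : Function.Bijective ψ :=
    (Nat.bijective_iff_injective_and_card _).2 ⟨hψ, by rw [hDcard, hBcard]⟩
  have hfpfD : ∀ a ∈ D, a ≠ 1 → H.subgroupOf K ⊓ Subgroup.centralizer ({a} : Set K) = ⊥ :=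
    (CfsgLib.Frobenius.centralizer_inf_iff (H.subgroupOf K) D).2 hDfpf
  have hnormD : D ≤ Subgroup.normalizer ((H.subgroupOf K : Subgroup K) : Set K) := Subgroup.le_normalizer_of_normal
  have hodd : Odd (H.relIndex K) := by
    rw [← Nat.not_even_iff_odd, even_iff_two_dvd, ← hBcard]
    intro h2
    haveI : Fact (Nat.Prime 2) := ⟨Nat.prime_two⟩
    obtain ⟨u, hu⟩ := exists_prime_orderOf_dvd_card' (G := B) 2 h2
    obtain ⟨c, hcC, hc1⟩ := (Subgroup.bot_or_exists_ne_one C).resolve_left hC.1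
    have hu' : (u : G ⧸ H) ≠ 1 := fun h => by
      rw [OneMemClass.coe_eq_one] at h
      rw [h, orderOf_one] at hu
      omega
    set v : B := MulAut.conjNormal c u with hv
    have hvu : v = u := by
      let E := MulEquiv.ofBijective ψ hψb
      have ho : ∀ z : B, orderOf z = 2 → orderOf ((E.symm z : D) : K) = 2 := fun z hz => by
        rw [Subgroup.orderOf_coe, MulEquiv.orderOf_eq, hz]
      have := CfsgLib.Cores.involution_eq_of_fpf hDne hnormD hfpfD (E.symm u).2 (E.symm v).2 (ho u hu)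
        (ho v (by rw [hv, MulEquiv.orderOf_eq, hu]))
      exact E.symm.injective (Subtype.ext this)
    exact hu' (hCfpf c hcC hc1 u u.2 (mul_inv_eq_iff_eq_mul.1 (congrArg Subtype.val hvu)))
  haveI hBnil : Group.IsNilpotent B := hCnil
  haveI hBz : IsZGroup B := by
    refine ⟨fun p hp P => ?_⟩
    haveI := Fact.mk hp
    let E := MulEquiv.ofBijective ψ hψb
    have hR : IsPGroup p ↥(((P : Subgroup B).map E.symm.toMonoidHom).map D.subtype) :=
      (P.isPGroup'.map _).map _
    rcases CfsgLib.Cores.isCyclic_or_quaternion_of_fpf hR hDne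
      ((Subgroup.map_subtype_le _).trans hnormD)
      (fun a ha h1 => hfpfD a (Subgroup.map_subtype_le _ ha) h1) with h | ⟨rfl, m, -, ⟨e⟩⟩
    · haveI := h
      exact isCyclic_of_surjective
        (((P : Subgroup B).equivMapOfInjective E.symm.toMonoidHom E.symm.injective).trans
          (((P : Subgroup B).map E.symm.toMonoidHom).equivMapOfInjective D.subtype D.subtype_injective)).symm.toMonoidHom
        (MulEquiv.surjective _)
    · exfalso
      haveI : NeZero (2 ^ m) := ⟨by positivity⟩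
      have h4 : Nat.card ↥(((P : Subgroup B).map E.symm.toMonoidHom).map D.subtype) = 4 * 2 ^ m := by
        rw [Nat.card_congr e.toEquiv, Nat.card_eq_fintype_card, QuaternionGroup.card]
      rw [Subgroup.card_map_of_injective D.subtype_injective,
        Subgroup.card_map_of_injective E.symm.injective] at h4
      have h2 : 2 ∣ Nat.card B := (dvd_mul_of_dvd_left (by norm_num) _).trans
        (h4 ▸ Subgroup.card_subgroup_dvd_card (P : Subgroup B))
      rw [hBcard] at h2
      exact Nat.not_even_iff_odd.2 hodd (even_iff_two_dvd.2 h2)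
  have hBc : IsCyclic B := inferInstance
  have hCcyc : IsCyclic C := by
    let θ : C →* MulAut B := MulAut.conjNormal.comp C.subtype
    haveI : IsMulCommutative C := by
      refine ⟨⟨fun a b => ?_⟩⟩
      have hθ : Function.Injective θ := by
        rw [← MonoidHom.ker_eq_bot_iff, Subgroup.eq_bot_iff_forall]
        intro c hc
        by_contra hc1
        obtain ⟨k, hk, hk1⟩ := (Subgroup.bot_or_exists_ne_one B).resolve_left hCne
        refine hk1 (hCfpf c c.2 (fun h => hc1 (Subtype.ext h)) k hk (mul_inv_eq_iff_eq_mul.1 ?_))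
        exact congrArg Subtype.val (DFunLike.congr_fun (MonoidHom.mem_ker.1 hc) ⟨k, hk⟩)
      apply hθ
      rw [map_mul, map_mul]
      ext w
      obtain ⟨m, hm⟩ := MonoidHom.map_cyclic (θ a).toMonoidHom
      obtain ⟨m', hm'⟩ := MonoidHom.map_cyclic (θ b).toMonoidHom
      simp only [MulEquiv.coe_toMonoidHom] at hm hm'
      simp only [MulAut.mul_apply, hm, hm', ← zpow_mul, mul_comm m m']
    exact CfsgLib.Cores.isCyclic_of_fpf hCne Subgroup.le_normalizer_of_normal
      ((CfsgLib.Frobenius.centralizer_inf_iff B C).2 hCfpf)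
  haveI hHnil : Group.IsNilpotent H := by
    haveI := hDnil
    exact Group.nilpotent_of_mulEquiv (Subgroup.subgroupOfEquivOfLe hlt.le)
  refine ⟨hlt, hHnil, ?_, hodd, hBc, hBcard, ⟨C, hCcyc, hCc, hCcard, hC.1, hCfpf⟩, ?_, ?_, ?_⟩
  · haveI := hCcyc
    haveI := hBc
    haveI : Group.IsSolvable B := Group.isSolvable_of_comm fun a b =>
      (IsCyclic.commutative (α := B)).is_comm.comm a b
    haveI : Group.IsSolvable C := Group.isSolvable_of_comm fun a b =>
      (IsCyclic.commutative (α := C)).is_comm.comm a b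
    haveI : Group.IsSolvable ((G ⧸ H) ⧸ B) :=
      Group.isSolvable_of_surjective (f := hCc.symm.QuotientMulEquiv.symm.toMonoidHom) hCc.symm.QuotientMulEquiv.symm.surjective
    haveI : Group.IsSolvable (G ⧸ H) :=
      Group.isSolvable_of_ker_le_range B.subtype (QuotientGroup.mk' B) (by simp)
    haveI : Group.IsSolvable H := inferInstance
    exact Group.isSolvable_of_ker_le_range H.subtype (QuotientGroup.mk' H) (by simp)
  · rw [← hDcard, ← hcardH]
    exact hDcop.symm
  · rw [← hBcard, ← hCcard]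
    exact hCcop
  · intro x hxK hxH y hyH hxy
    have hyK : y ∈ K := hlt.le hyH
    obtain ⟨h, hh, d, hd, hxd⟩ := CfsgLib.Frobenius.exists_eq_mul_of_sup_eq_top _ _ hDc.sup_eq_top (⟨x, hxK⟩ : K)
    have hd1 : d ≠ 1 := fun he => hxH (by
      rw [he, mul_one] at hxd
      exact Subgroup.mem_subgroupOf.1 (hxd ▸ hh : (⟨x, hxK⟩ : K) ∈ H.subgroupOf K))
    obtain ⟨a, ha, had⟩ := CfsgLib.Frobenius.exists_conj_eq _ _ hDfpf hd hd1 hh
    rw [← hxd] at had
    have hmem : a⁻¹ * ⟨y, hyK⟩ * a ∈ H.subgroupOf K :=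
      mul_mem (mul_mem (inv_mem ha) (Subgroup.mem_subgroupOf.2 hyH)) ha
    have hc : a * d * a⁻¹ * ⟨y, hyK⟩ = ⟨y, hyK⟩ * (a * d * a⁻¹) := by
      rw [had]; exact Subtype.ext hxy
    have h1 := hDfpf d hd hd1 _ hmem (by
      have := congrArg (fun t => a⁻¹ * t * a) hc
      simpa [mul_assoc] using this)
    have : (⟨y, hyK⟩ : K) = 1 :=
      calc (⟨y, hyK⟩ : K) = a * (a⁻¹ * ⟨y, hyK⟩ * a) * a⁻¹ := by group
        _ = 1 := by rw [h1]; group
    exact congrArg Subtype.val this

/-- In a 2-Frobenius group an element of prime order in the top factor centralizes a non-identity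
element of each Sylow subgroup of the bottom one. -/
theorem IsTwoFrobenius.exists_orderOf_eq {H K : Subgroup G} [H.Normal] [K.Normal]
    (h : IsTwoFrobenius H K) {p q : ℕ} (hp : p.Prime) (hq : q.Prime) (hpq : p ≠ q)
    (hpH : p ∣ Nat.card H) (hqK : q ∣ K.index) (hqH : ¬ q ∣ Nat.card H) :
    ∃ g : G, orderOf g = p * q := by
  haveI := Fact.mk hp
  haveI := Fact.mk hq
  obtain ⟨C, hCcyc, hCc, hCcard, hCne, hCfpf⟩ := h.cyclic_top
  obtain ⟨c, hc⟩ := exists_prime_orderOf_dvd_card' (G := C) q (hCcard ▸ hqK)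
  have hco : orderOf (c : G ⧸ H) = q ^ 1 := by rw [pow_one, Subgroup.orderOf_coe, hc]
  obtain ⟨x, hxc, e, he⟩ := exists_lift_primePow H (c : G ⧸ H) hco
  have hxq : x ^ q = 1 := by
    have hmem : x ^ q ∈ H := (QuotientGroup.eq_one_iff _).1 (by
      rw [QuotientGroup.mk_pow, hxc, ← orderOf_dvd_iff_pow_eq_one, hco, pow_one])
    refine orderOf_eq_one_iff.1 (Nat.eq_one_of_dvd_coprimes
      (((Nat.Prime.coprime_iff_not_dvd hq).2 hqH).pow_left e) ?_ (Subgroup.orderOf_dvd_natCard H hmem))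
    exact he ▸ orderOf_pow_dvd q
  have hxo : orderOf x = q := orderOf_eq_prime hxq fun hx1 => by
    rw [hx1, QuotientGroup.mk_one] at hxc
    rw [← hxc, orderOf_one, pow_one] at hco
    exact hq.ne_one hco.symm
  -- a Sylow subgroup of `K` for a prime of the middle factor, normalized by `x`
  have hb : H.relIndex K ≠ 1 := fun h1 => h.lt.not_ge (Subgroup.relIndex_eq_one.1 h1)
  obtain ⟨r, hr, hrb⟩ := Nat.exists_prime_and_dvd hb
  haveI := Fact.mk hr
  have hrH : ¬ r ∣ Nat.card H := fun hd => hr.ne_one (Nat.eq_one_of_dvd_coprimes h.coprime_bot hrb hd)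
  have hcardK : Nat.card K = Nat.card H * H.relIndex K := by
    rw [Subgroup.relIndex, ← Nat.card_congr (Subgroup.subgroupOfEquivOfLe h.lt.le).toEquiv,
      Subgroup.card_mul_index]
  have hqb : ¬ q ∣ H.relIndex K := fun hd => hq.ne_one (Nat.eq_one_of_dvd_coprimes h.coprime_top hd hqK)
  have hcop : (Nat.card ↥(Subgroup.zpowers x)).Coprime (Nat.card K) := by
    rw [Nat.card_zpowers, hxo, hcardK]
    exact Nat.Coprime.mul_right ((hq.coprime_iff_not_dvd).2 hqH) ((hq.coprime_iff_not_dvd).2 hqb)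
  obtain ⟨Q₀, hQ₀⟩ := CfsgLib.CoprimeAction.exists_invariant_sylow (A := Subgroup.zpowers x) (K := K)
    Subgroup.le_normalizer_of_normal hcop
    (Or.inl (Group.isSolvable_of_comm fun a b => Std.Commutative.comm a b)) r
  set Q := (Q₀ : Subgroup K).map K.subtype with hQdef
  have hQK : Q ≤ K := Subgroup.map_subtype_le _
  have hQr : IsPGroup r Q := Q₀.isPGroup'.map _
  have hQH : ∀ y ∈ Q, y ∈ H → y = 1 := fun y hy hyH => by
    obtain ⟨i, hi⟩ := IsPGroup.iff_orderOf.1 hQr ⟨y, hy⟩
    rw [Subgroup.orderOf_mk] at hi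
    exact orderOf_eq_one_iff.1 (Nat.eq_one_of_dvd_coprimes (((hr.coprime_iff_not_dvd).2 hrH).pow_left i)
      hi.dvd (Subgroup.orderOf_dvd_natCard H hyH))
  -- the centre of the Sylow `p`-subgroup of `H`
  obtain ⟨P⟩ := (inferInstance : Nonempty (Sylow p H))
  haveI hPn : (P : Subgroup H).Normal :=
    by
    have h3 := ((Group.isNilpotent_of_finite_tfae (G := H)).out 0 3 :)
    exact (h3.1 h.nilpotent) p inferInstance P
  haveI : (P : Subgroup H).Characteristic := P.characteristic_of_normal hPn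
  haveI : ((P : Subgroup H).map H.subtype).Normal := ConjAct.normal_of_characteristic_of_normal
  set P' := (P : Subgroup H).map H.subtype with hP'
  haveI : ((Subgroup.center P').map P'.subtype).Normal := ConjAct.normal_of_characteristic_of_normal
  set V := (Subgroup.center P').map P'.subtype with hV
  have hVH : V ≤ H := (Subgroup.map_subtype_le _).trans (Subgroup.map_subtype_le _)
  have hP'p : IsPGroup p P' := P.isPGroup'.map _
  haveI : Nontrivial P' := (Subgroup.nontrivial_iff_ne_bot _).2 fun hb' =>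
    P.ne_bot_of_dvd_card hpH ((Subgroup.map_eq_bot_iff_of_injective _ H.subtype_injective).1 hb')
  haveI := hP'p.center_nontrivial
  obtain ⟨v, hv⟩ := exists_ne (1 : Subgroup.center P')
  have hvV : ((v : P') : G) ∈ V := ⟨v, v.2, rfl⟩
  have hv1 : ((v : P') : G) ≠ 1 := fun he' => hv (Subtype.ext (Subtype.ext he'))
  have hVp : IsPGroup p V := (hP'p.to_subgroup _).map _
  have hQne : Nat.card Q ≠ 1 := by
    rw [hQdef, Subgroup.card_map_of_injective K.subtype_injective]
    exact fun h1 => Q₀.ne_bot_of_dvd_card (hcardK ▸ hrb.mul_left _) (Subgroup.card_eq_one.1 h1)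
  obtain ⟨w, hwV, hw1, hwx⟩ := CfsgLib.OrderDegrees.exists_fixed_of_frobenius_action V Q x q hq.pos hxq
    (by
      rintro _ ⟨a, ha, rfl⟩ _ ⟨b, -, rfl⟩
      exact congrArg Subtype.val ((Subgroup.mem_center_iff.1 ha b).symm :))
    (fun y _ u hu => (inferInstance : V.Normal).conj_mem u hu y)
    (fun u hu => (inferInstance : V.Normal).conj_mem u hu x)
    (fun y hy => (Subgroup.mem_normalizer_iff.1 (hQ₀ (Subgroup.mem_zpowers x)) y).1 hy)
    (fun i hi hiq y hy hfix => by
      refine hQH y hy ((QuotientGroup.eq_one_iff y).1 ?_)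
      refine hCfpf ((c : G ⧸ H) ^ i) (pow_mem c.2 i) (fun h1 => ?_) _
        (Subgroup.mem_map_of_mem _ (hQK hy)) ?_
      · have := orderOf_dvd_of_pow_eq_one h1
        rw [hco, pow_one] at this
        exact absurd (Nat.le_of_dvd hi this) (by omega)
      · rw [← hxc]
        have := congrArg (QuotientGroup.mk' H) hfix
        simp only [map_mul, map_inv, map_pow] at this
        exact mul_inv_eq_iff_eq_mul.1 this)
    (fun u hu hfix => by
      obtain ⟨y, hy, hy1⟩ := (Subgroup.bot_or_exists_ne_one Q).resolve_left fun hb' => hQne (by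
        rw [hb', Subgroup.card_bot])
      exact h.no_commute y (hQK hy) (fun hyH => hy1 (hQH y hy hyH)) u (hVH hu)
        (mul_inv_eq_iff_eq_mul.1 (hfix y hy)))
    _ hvV (fun h1 => hv1 (by
      obtain ⟨j, hj⟩ := IsPGroup.iff_orderOf.1 hVp ⟨_, hvV⟩
      rw [Subgroup.orderOf_mk] at hj
      obtain ⟨k, hk⟩ := IsPGroup.iff_card.1 hQr
      rw [hk] at h1
      refine orderOf_eq_one_iff.1 (Nat.eq_one_of_dvd_coprimes
        (((Nat.coprime_primes hp hr).2 ?_).pow j k) hj.dvd (orderOf_dvd_of_pow_eq_one h1))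
      rintro rfl
      exact hrH hpH))
  obtain ⟨j, hj⟩ := IsPGroup.iff_orderOf.1 hVp ⟨w, hwV⟩
  rw [Subgroup.orderOf_mk] at hj
  have hpw : p ∣ orderOf w := by
    rcases j.eq_zero_or_pos with rfl | hj0
    · exact absurd (orderOf_eq_one_iff.1 (by simpa using hj)) hw1
    · rw [hj]; exact dvd_pow_self p hj0.ne'
  exact CfsgLib.OrderDegrees.exists_orderOf_eq_mul_of_commute hp hq hpq
    (a := w) (b := x) (mul_inv_eq_iff_eq_mul.1 hwx).symm hpw (by rw [hxo])

/-- The prime graph of a 2-Frobenius group. -/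
theorem IsTwoFrobenius.exists_orderOf_iff {H K : Subgroup G} [H.Normal] [K.Normal]
    (h : IsTwoFrobenius H K) {p q : ℕ} (hp : p.Prime) (hq : q.Prime) (hpq : p ≠ q)
    (hpG : p ∣ Nat.card G) (hqG : q ∣ Nat.card G) :
    (∃ g : G, orderOf g = p * q) ↔ (p ∣ H.relIndex K ↔ q ∣ H.relIndex K) := by
  obtain ⟨C, hCcyc, hCc, hCcard, hCne, hCfpf⟩ := h.cyclic_top
  haveI := Fact.mk hp
  haveI := Fact.mk hq
  haveI := h.cyclic_mid
  have hcase : ∀ r : ℕ, r.Prime → r ∣ Nat.card G → ¬ r ∣ H.relIndex K → r ∣ Nat.card H ∨ r ∣ K.index := by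
    intro r hr hrG hrb
    rw [← K.card_mul_index, ← (H.subgroupOf K).card_mul_index,
      Nat.card_congr (Subgroup.subgroupOfEquivOfLe h.lt.le).toEquiv] at hrG
    rcases hr.dvd_mul.1 hrG with h1 | h1
    · rcases hr.dvd_mul.1 h1 with h2 | h2
      · exact Or.inl h2
      · exact absurd h2 hrb
    · exact Or.inr h1
  have hno : ∀ (p q : ℕ), p.Prime → q.Prime → p ≠ q → p ∣ H.relIndex K → ¬ q ∣ H.relIndex K →
      ¬ ∃ g : G, orderOf g = p * q := by
    rintro p q hp hq hpq hpb hqb ⟨g, hg⟩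
    haveI := Fact.mk hp
    haveI := Fact.mk hq
    have hgp : orderOf (g ^ q) = p := by
      rw [orderOf_pow' g hq.ne_zero, hg, Nat.gcd_eq_right (dvd_mul_left _ _), Nat.mul_div_cancel _ hq.pos]
    have hgq : orderOf (g ^ p) = q := by
      rw [orderOf_pow' g hp.ne_zero, hg, Nat.gcd_eq_right (dvd_mul_right _ _),
        Nat.mul_div_cancel_left _ hp.pos]
    set B := K.map (QuotientGroup.mk' H) with hB
    haveI : B.Normal := Subgroup.Normal.map inferInstance _ (QuotientGroup.mk'_surjective H)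
    have hxH : g ^ q ∉ H := fun hm => hp.ne_one (Nat.eq_one_of_dvd_coprimes h.coprime_bot hpb
      (hgp ▸ Subgroup.orderOf_dvd_natCard H hm))
    have hxK : g ^ q ∈ K := mem_of_coprime_index K (hgp ▸ h.coprime_top.coprime_dvd_left hpb)
    have hcm : Commute (g ^ q) (g ^ p) := Commute.pow_pow_self g q p
    have hw : ((g ^ q : G) : G ⧸ H) ≠ 1 := fun e => hxH ((QuotientGroup.eq_one_iff _).1 e)
    have hwB : ((g ^ q : G) : G ⧸ H) ∈ B := Subgroup.mem_map_of_mem (QuotientGroup.mk' H) hxK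
    obtain ⟨k, hk, c, hc, hkc⟩ := CfsgLib.Frobenius.exists_eq_mul_of_sup_eq_top _ _ hCc.sup_eq_top
      ((g ^ p : G) : G ⧸ H)
    have hc1 : c = 1 := by
      by_contra hc1
      refine hw (hCfpf c hc hc1 _ hwB ?_)
      have h1 : Commute (k * c) ((g ^ q : G) : G ⧸ H) := by
        rw [← hkc]; exact (hcm.map (QuotientGroup.mk' H)).symm
      have h2 : Commute k ((g ^ q : G) : G ⧸ H) :=
        congrArg Subtype.val ((IsCyclic.commutative (α := B)).is_comm.comm ⟨k, hk⟩ ⟨_, hwB⟩)
      have h3 := h2.inv_left.mul_left h1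
      rwa [inv_mul_cancel_left] at h3
    have hzK : ((g ^ p : G) : G ⧸ H) ∈ B := by rw [hkc, hc1, mul_one]; exact hk
    have hz1 : ((g ^ p : G) : G ⧸ H) = 1 := by
      refine orderOf_eq_one_iff.1 (Nat.eq_one_of_dvd_coprimes ((hq.coprime_iff_not_dvd).2 hqb) ?_ ?_)
      · exact (orderOf_map_dvd (QuotientGroup.mk' H) (g ^ p)).trans hgq.dvd
      · exact h.card_mid ▸ Subgroup.orderOf_dvd_natCard B hzK
    have := h.no_commute _ hxK hxH _ ((QuotientGroup.eq_one_iff _).1 hz1) hcm
    exact hq.ne_one (hgq.symm.trans (by rw [this, orderOf_one]))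
  have hlift : ∀ z : G ⧸ H, p * q ∣ orderOf z → ∃ g : G, orderOf g = p * q := by
    intro z hz
    obtain ⟨y, rfl⟩ := QuotientGroup.mk'_surjective H z
    exact ⟨_, orderOf_pow_orderOf_div (orderOf_pos y).ne' (hz.trans (orderOf_map_dvd (QuotientGroup.mk' H) y))⟩
  have hcyc : ∀ S : Subgroup (G ⧸ H), IsCyclic S → p ∣ Nat.card S → q ∣ Nat.card S →
      ∃ g : G, orderOf g = p * q := by
    intro S hS h1 h2
    obtain ⟨z, hz⟩ := IsCyclic.exists_ofOrder_eq_natCard (α := S)
    refine hlift z ?_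
    rw [Subgroup.orderOf_coe, hz]
    exact (((Nat.coprime_primes hp hq).2 hpq)).mul_dvd_of_dvd_of_dvd h1 h2
  constructor
  · intro hg
    by_cases hpb : p ∣ H.relIndex K <;> by_cases hqb : q ∣ H.relIndex K
    · exact iff_of_true hpb hqb
    · exact absurd hg (hno p q hp hq hpq hpb hqb)
    · obtain ⟨g, hg⟩ := hg
      exact absurd ⟨g, by rw [hg, mul_comm]⟩ (hno q p hq hp hpq.symm hqb hpb)
    · exact iff_of_false hpb hqb
  · intro hiff
    by_cases hpb : p ∣ H.relIndex K
    · exact hcyc _ h.cyclic_mid (h.card_mid ▸ hpb) (h.card_mid ▸ hiff.1 hpb)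
    have hqb : ¬ q ∣ H.relIndex K := fun hh => hpb (hiff.2 hh)
    rcases hcase p hp hpG hpb with h1 | h1 <;> rcases hcase q hq hqG hqb with h2 | h2
    · obtain ⟨a, ha⟩ := exists_prime_orderOf_dvd_card' (G := H) p h1
      obtain ⟨b, hb⟩ := exists_prime_orderOf_dvd_card' (G := H) q h2
      exact CfsgLib.OrderDegrees.exists_orderOf_eq_mul_of_commute hp hq hpq
        (a := (a : G)) (b := (b : G)) ((commute_of_nilpotent h.nilpotent hpq ha hb).map H.subtype)
        (by rw [Subgroup.orderOf_coe, ha]) (by rw [Subgroup.orderOf_coe, hb])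
    · by_cases hqH : q ∣ Nat.card H
      · obtain ⟨a, ha⟩ := exists_prime_orderOf_dvd_card' (G := H) p h1
        obtain ⟨b, hb⟩ := exists_prime_orderOf_dvd_card' (G := H) q hqH
        exact CfsgLib.OrderDegrees.exists_orderOf_eq_mul_of_commute hp hq hpq
          (a := (a : G)) (b := (b : G)) ((commute_of_nilpotent h.nilpotent hpq ha hb).map H.subtype)
          (by rw [Subgroup.orderOf_coe, ha]) (by rw [Subgroup.orderOf_coe, hb])
      · exact h.exists_orderOf_eq hp hq hpq h1 h2 hqH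
    · by_cases hpH : p ∣ Nat.card H
      · obtain ⟨a, ha⟩ := exists_prime_orderOf_dvd_card' (G := H) p hpH
        obtain ⟨b, hb⟩ := exists_prime_orderOf_dvd_card' (G := H) q h2
        exact CfsgLib.OrderDegrees.exists_orderOf_eq_mul_of_commute hp hq hpq
          (a := (a : G)) (b := (b : G)) ((commute_of_nilpotent h.nilpotent hpq ha hb).map H.subtype)
          (by rw [Subgroup.orderOf_coe, ha]) (by rw [Subgroup.orderOf_coe, hb])
      · obtain ⟨g, hg⟩ := h.exists_orderOf_eq hq hp hpq.symm h2 h1 hpH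
        exact ⟨g, by rw [hg, mul_comm]⟩
    · exact hcyc C hCcyc (hCcard ▸ h1) (hCcard ▸ h2)

end CfsgLib.SchurExt
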